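import Cfsg.Statements.S0315
import Cfsg.Agent.H1.BNPair

set_option autoImplicit false
open Cfsg

namespace Cfsg.Agent.S0315

/-- Standard parabolic subgroups intersect as the index sets do: `P_J ⊓ P_K = P_{J ∩ K}`. -/
theorem result {G : Type*} [Group G] (P : Cfsg.BNPair G) {J K : Set G}
    (hJ : J ⊆ P.S) (hK : K ⊆ P.S) : P.parabolic J ⊓ P.parabolic K = P.parabolic (J ∩ K) := by
  rw [CfsgH1.eq_parabolic_of_le (le_inf (CfsgH1.B_le_parabolic J) (CfsgH1.B_le_parabolic K))]
  congr 1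
  rw [Subgroup.coe_inf, Set.inter_inter_distrib_left, CfsgH1.inter_parabolic hJ,
    CfsgH1.inter_parabolic hK]

end Cfsg.Agent.S0315
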