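import Cfsg.Statements.S0319
import Cfsg.Agent.H1.BNPair

set_option autoImplicit false
open Cfsg

namespace Cfsg.Agent.S0319

/-- Simplicity criterion for groups with a (B,N)-pair: if the distinguished generators admit no
splitting into two non-empty mutually commuting parts, `B` is solvable, `G` is perfect and the intersection
of all conjugates of `B` is trivial, then `G` is simple. -/
theorem result {G : Type*} [Group G] [Nontrivial G]
    (P : Cfsg.BNPair G) (hirr : P.Irreducible) (hsolv : Group.IsSolvable P.B) (hperf : commutator G = ⊤)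
    (hcore : P.B.normalCore = ⊥) : IsSimpleGroup G := by
  refine ⟨fun H hH => ?_⟩
  by_cases hHB : H ≤ P.B
  · left
    rw [eq_bot_iff, ← hcore]
    exact Subgroup.normal_le_normalCore.2 hHB
  · right
    have h1 := CfsgH1.sup_eq_top_of_normal hirr H hHB
    have hsurj : Function.Surjective ((QuotientGroup.mk' H).comp P.B.subtype) := by
      intro x
      obtain ⟨g, rfl⟩ := QuotientGroup.mk'_surjective H x
      have hg : g ∈ ((H ⊔ P.B : Subgroup G) : Set G) := by rw [h1]; trivial
      rw [Subgroup.normal_mul] at hg
      obtain ⟨h, hh, b, hb, rfl⟩ := hg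
      refine ⟨⟨b, hb⟩, ?_⟩
      simp [(QuotientGroup.eq_one_iff h).2 hh]
    haveI : Group.IsSolvable (G ⧸ H) := Group.isSolvable_of_surjective hsurj
    by_contra hne
    haveI : Nontrivial (G ⧸ H) := QuotientGroup.nontrivial_iff.2 hne
    have h2 : commutator (G ⧸ H) = ⊤ := by
      have := Subgroup.map_commutator (⊤ : Subgroup G) ⊤ (QuotientGroup.mk' H)
      rw [← commutator_def, hperf,
        Subgroup.map_top_of_surjective _ (QuotientGroup.mk'_surjective H)] at this
      rw [commutator_def, ← this]
    exact (Group.IsSolvable.commutator_lt_top_of_nontrivial (G ⧸ H)).ne h2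

end Cfsg.Agent.S0319
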