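import Cfsg.Statements.S0321
import Cfsg.Agent.H1.BNPair

set_option autoImplicit false
open Cfsg

namespace Cfsg.Agent.S0321

/-- For `n ∈ N` not in `B`, the union `B ∪ B n B` is (the underlying set of) a subgroup exactly when `n` agrees
modulo `B ⊓ N` with one of the distinguished representatives; thus the distinguished involutions are
determined by `B` and `N`. -/
theorem result {G : Type*} [Group G] (P : Cfsg.BNPair G) {n : G}
    (hn : n ∈ P.N) (hnB : n ∉ P.B) :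
    (∃ H : Subgroup G, (H : Set G) = (P.B : Set G) ∪ DoubleCoset.doubleCoset n (P.B : Set G) P.B) ↔ ∃ s ∈ P.S, s⁻¹ * n ∈ P.B := by
  have e1 := CfsgH1.cell_eq_doubleCoset (P := P) ⟨n, hn⟩
  simp only at e1
  rw [← e1]
  constructor
  · rintro ⟨H, hH⟩
    have hB : P.B ≤ H := fun b hb => by
      rw [← SetLike.mem_coe, hH]; exact Or.inl hb
    have hnH : n ∈ H := by
      rw [← SetLike.mem_coe, hH]; exact Or.inr (CfsgH1.self_mem_cell ⟨n, hn⟩)
    obtain ⟨l, hl, hl'⟩ := (CfsgH1.weylGen P).exists_red (CfsgH1.toW P ⟨n, hn⟩)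
    have h1 := CfsgH1.letters_mem_of_mem hB l hl (hl' ▸ CfsgH1.self_mem_cell ⟨n, hn⟩) hnH
    cases l with
    | nil => exact absurd ((CfsgH1.toW_eq_one_iff P _).1 hl'.symm) hnB
    | cons s l =>
      have h2 : (s : G) ∈ (H : Set G) := h1 s (by simp)
      rw [hH] at h2
      rcases h2 with h2 | h2
      · exact absurd h2 (CfsgH1.s_notMem_B s)
      · exact ⟨s, s.2, (CfsgH1.toW_eq_iff P _ _).1 (CfsgH1.cell_unique (CfsgH1.s_mem_cell s) h2)⟩
  · rintro ⟨s, hs, h⟩
    have e : (CfsgH1.weylGen P).σ ⟨s, hs⟩ = CfsgH1.toW P ⟨n, hn⟩ := (CfsgH1.toW_eq_iff P _ _).2 h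
    refine ⟨P.parabolic {s}, ?_⟩
    ext g
    rw [← e]
    exact CfsgH1.mem_parabolic_singleton ⟨s, hs⟩ g

end Cfsg.Agent.S0321
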