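import Cfsg.Statements.S0322
import Cfsg.Agent.H1.BNPair

set_option autoImplicit false
open Cfsg

namespace Cfsg.Agent.S0322

/-- A group with a (B,N)-pair of rank one acts doubly transitively on the left cosets of `B`. -/
theorem result {G : Type*} [Group G] (P : Cfsg.BNPair G) (h : P.rank = 1) : MulAction.IsMultiplyPretransitive G (G ⧸ P.B) 2 := by
  obtain ⟨⟨hsub⟩, ⟨s⟩⟩ := Nat.card_eq_one_iff_unique.1 h
  have hS : P.S = {(s : G)} := by
    ext t
    exact ⟨fun ht => congrArg Subtype.val (hsub ⟨t, ht⟩ s), fun ht => ht ▸ s.2⟩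
  have hall : ∀ g : G, g ∈ P.B ∨ g ∈ CfsgH1.cell P ((CfsgH1.weylGen P).σ s) := by
    intro g
    rw [← CfsgH1.mem_parabolic_singleton, ← hS, CfsgH1.parabolic_S]
    trivial
  rw [MulAction.is_two_pretransitive_iff]
  intro a b c d hab hcd
  obtain ⟨a, rfl⟩ := QuotientGroup.mk_surjective a
  obtain ⟨b, rfl⟩ := QuotientGroup.mk_surjective b
  obtain ⟨c, rfl⟩ := QuotientGroup.mk_surjective c
  obtain ⟨d, rfl⟩ := QuotientGroup.mk_surjective d
  rw [Ne, QuotientGroup.eq] at hab hcd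
  obtain ⟨x, hx, y, hy, e⟩ := CfsgH1.exists_eq_of_mem_cell ((hall _).resolve_left hab)
    ((hall _).resolve_left hcd)
  refine ⟨c * x * a⁻¹, ?_, ?_⟩
  · rw [MulAction.Quotient.smul_mk, QuotientGroup.eq]
    simpa using hx
  · rw [MulAction.Quotient.smul_mk, QuotientGroup.eq]
    have : ((c * x * a⁻¹) • b)⁻¹ * d = y := by
      have e2 : d = c * (x * (a⁻¹ * b) * y) := by rw [← e]; group
      rw [e2, smul_eq_mul]; group
    rw [this]; exact hy

end Cfsg.Agent.S0322
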