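import Cfsg.Statements.S0326
import Cfsg.Agent.H2.SzBasic

set_option autoImplicit false
open Cfsg

namespace Cfsg.Agent.S0326

/-- The Suzuki–Tits ovoid over a finite field with `q` elements has `q² + 1` points. -/
theorem result {F : Type*} [Field F] [Fintype F] (m : ℕ) :
    Nat.card (Cfsg.suzukiOvoid F m) = Fintype.card F ^ 2 + 1 := by
  rw [CfsgH2.card_ovoid, Nat.card_eq_fintype_card]

end Cfsg.Agent.S0326
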