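import Cfsg.Statements.S0338
import Cfsg.Agent.H3.ZassBasic

set_option autoImplicit false
open Cfsg

namespace Cfsg.Agent.S0338

/-- A Zassenhaus group of odd degree is a simple group. -/
theorem result {G Ω : Type*} [Group G] [MulAction G Ω] [Fintype Ω]
    (hZ : Cfsg.IsZassenhausGroup G Ω) (hodd : Odd (Fintype.card Ω)) : IsSimpleGroup G := by
  classical
  have := hZ.1
  have : Finite G := CfsgH3.finite_of_faithful (Ω := Ω)
  have Z := CfsgH3.zt_of_zassenhaus hZ
  obtain ⟨g0, hg0, c, a, hca, h1, h2⟩ := hZ.2.2.2.1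
  have : Nontrivial G := ⟨g0, 1, hg0⟩
  refine ⟨fun N hN => ?_⟩
  by_cases hb : N = ⊥
  · exact Or.inl hb
  right
  have hK := Z.card_K (a := c) (b := a) hca.symm
  rw [Nat.card_eq_fintype_card (α := Ω)] at hK
  have h2d : 2 ∣ Nat.card (Z.K c) := by
    obtain ⟨m, hm⟩ := hodd
    exact ⟨m, by omega⟩
  have : Fact (Nat.Prime 2) := ⟨Nat.prime_two⟩
  obtain ⟨⟨t, htK⟩, ht⟩ := exists_prime_orderOf_dvd_card' (G := Z.K c) 2 h2d
  have ht1 : t ≠ 1 := by
    intro h
    rw [show (⟨t, htK⟩ : Z.K c) = 1 from Subtype.ext h, orderOf_one] at ht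
    omega
  have ht2 : t * t = 1 := by
    have := pow_orderOf_eq_one (⟨t, htK⟩ : Z.K c)
    rw [ht, pow_two] at this
    exact congrArg Subtype.val this
  have hti : t⁻¹ = t := inv_eq_of_mul_eq_one_right ht2
  have htN : t ∈ N := CfsgH3.zass_K_le_normal hZ N hb c htK
  have hab : a ≠ t • a := fun h => ht1 (Z.K_eq_one htK hca.symm h.symm)
  let H := MulAction.stabilizer G a ⊓ MulAction.stabilizer G (t • a)
  have hH : ∀ x, x ∈ H ↔ x • a = a ∧ x • t • a = t • a := fun x => Iff.rfl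
  have htt : ∀ x : Ω, t • t • x = x := fun x => by rw [← mul_smul, ht2, one_smul]
  let f : H → H := fun x => ⟨(x : G)⁻¹ * (t * x * t⁻¹), H.mul_mem (H.inv_mem x.2) (by
    rw [hH, hti]
    have := (hH x).1 x.2
    simp [mul_smul, this.1, this.2, htt])⟩
  have hf : Function.Injective f := by
    intro x y hxy
    have e : (x : G)⁻¹ * (t * x * t⁻¹) = (y : G)⁻¹ * (t * y * t⁻¹) := congrArg Subtype.val hxy
    have hc : (y * (x : G)⁻¹) * t = t * (y * (x : G)⁻¹) := by
      calc (y * (x : G)⁻¹) * t = y * ((x : G)⁻¹ * (t * x * t⁻¹)) * t * (x : G)⁻¹ := by group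
        _ = _ := by rw [e]; group
    have hm := Z.mem_K_of_commute htK ht1 hc
    have := Z.K_eq_one hm hca.symm ((hH _).1 (H.mul_mem y.2 (H.inv_mem x.2))).1
    exact Subtype.ext (mul_inv_eq_one.1 this).symm
  have hHN : H ≤ N := by
    intro h hh
    obtain ⟨x, hx⟩ := Finite.surjective_of_injective hf ⟨h, hh⟩
    have e : (x : G)⁻¹ * (t * x * t⁻¹) = h := congrArg Subtype.val hx
    rw [← e]
    have := N.mul_mem (hN.conj_mem' t htN x) (N.inv_mem htN)
    simpa [mul_assoc] using this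
  rw [eq_top_iff]
  intro g _
  obtain ⟨n, hn, e1, e2⟩ := CfsgH3.zass_normal_two hZ N hb hab
    (c := g • a) (d := g • t • a) (by simpa using hab)
  have : n⁻¹ * g ∈ H := by
    rw [hH]; simp [mul_smul, ← e1, ← e2]
  have := N.mul_mem hn (hHN this)
  simpa using this

end Cfsg.Agent.S0338
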