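import Cfsg.Statements.S0347
import Cfsg.Agent.L.Zass4
import Cfsg.Agent.H2.ZassSz1

set_option autoImplicit false
open Cfsg

namespace Cfsg.Agent.S0347

/-- If in a finite simple Zassenhaus group the stabiliser of a point `x` has a normal `2`-subgroup `U` which is
non-abelian and acts regularly on the points other than `x`, then the group is simple of Suzuki order (order-level
predicate `IsSuzuki`). -/
theorem result {G Ω : Type*} [Group G] [Finite G] [MulAction G Ω] [Finite Ω]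
    (hZ : Cfsg.IsZassenhausGroup G Ω) [IsSimpleGroup G]
    (x : Ω) (U : Subgroup G) (hUle : U ≤ MulAction.stabilizer G x) (hUn : (U.subgroupOf (MulAction.stabilizer G x)).Normal)
    (hU2 : IsPGroup 2 U) (hUna : ∃ u v : U, u * v ≠ v * u)
    (hreg : ∀ y z : Ω, y ≠ x → z ≠ x → ∃! u : U, (u : G) • y = z) :
    Cfsg.IsSuzuki G := by
  obtain ⟨b, hab⟩ := CfsgL.exists_ne_of_zass hZ x
  have h1 : U ≤ (CfsgH3.zt_of_zassenhaus hZ).K x := by
    intro u hu
    refine (CfsgH3.zt_of_zassenhaus hZ).mem_K.2 ⟨hUle hu, ?_⟩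
    by_cases e : u = 1
    · exact Or.inl e
    refine Or.inr fun y hy h => e ?_
    obtain ⟨w, -, hw⟩ := hreg y y hy hy
    exact congrArg Subtype.val ((hw ⟨u, hu⟩ h).trans (hw 1 (one_smul G y)).symm)
  have h2 : (CfsgH3.zt_of_zassenhaus hZ).K x = U := by
    refine le_antisymm (fun k hk => ?_) h1
    obtain ⟨w, hw, -⟩ := hreg b (k • b) hab.symm
      ((CfsgH3.zt_of_zassenhaus hZ).K_smul_ne hk hab.symm)
    rw [← (CfsgH3.zt_of_zassenhaus hZ).K_smul_inj hab.symm (h1 w.2) hk hw]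
    exact w.2
  have h3 : IsPGroup 2 ((CfsgH3.zt_of_zassenhaus hZ).K x) := h2 ▸ hU2
  rcases CfsgL.zass_two_cases hZ hab h3 with h | h
  · obtain ⟨u, v, huv⟩ := hUna
    exact absurd (Subtype.ext (h.1 u (h1 u.2) v (h1 v.2))) huv
  · exact CfsgH2.isSuzuki_of_card_K hZ hab h3 h.2

end Cfsg.Agent.S0347
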