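import Cfsg.Statements.S0349
import Cfsg.Agent.SZ.BN_c
import Cfsg.Agent.H1.BNPair

set_option autoImplicit false
open Cfsg

namespace Cfsg.Agent.S0349

/-- Let a finite simple group have a (B,N)-pair of rank one which is strongly split (`B = U (B ⊓ N)` with `U` nilpotent,
normal in `B` and meeting `N` trivially), with `[G : B]` and `|B ⊓ N|` odd. Then the group is isomorphic to `PSL₂(F)` with
`|F|` a power of `2`, or is simple of Suzuki order, or is isomorphic to `PSU₃` realised over a field with `q²` elements,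
`q = 2^n`, `n ≥ 2`. -/
theorem result {G : Type*} [Group G] [Finite G] [IsSimpleGroup G]
    (P : Cfsg.BNPair G) (hrank : P.rank = 1) (U : Subgroup G) (hUB : U ≤ P.B)
    (hUn : (U.subgroupOf P.B).Normal) (hUnil : Group.IsNilpotent U) (hsplit : U ⊔ (P.B ⊓ P.N) = P.B)
    (hdisj : U ⊓ P.N = ⊥) (hind : Odd P.B.index) (hH : Odd (Nat.card ↥(P.B ⊓ P.N))) :
    (∃ (F : Type) (_ : Field F) (_ : Fintype F), (∃ n : ℕ, Fintype.card F = 2 ^ n) ∧ Nonempty (G ≃* Matrix.ProjectiveSpecialLinearGroup (Fin 2) F)) ∨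
      Cfsg.IsSuzuki G ∨
      (∃ (F : Type) (_ : Field F) (_ : Fintype F) (n : ℕ), 2 ≤ n ∧ Fintype.card F = (2 ^ n) ^ 2 ∧
        Nonempty (G ≃* Cfsg.PSU 3 F (2 ^ n))) := by
  obtain ⟨⟨s, hs⟩, huniq⟩ := Nat.card_eq_one_iff_exists.1 hrank
  have hS : P.S = {s} := Set.eq_singleton_iff_unique_mem.2 ⟨hs, fun x hx =>
    congrArg Subtype.val (huniq ⟨x, hx⟩)⟩
  have sN : s ∈ P.N := P.subset hs
  have s2 : s * s ∈ P.B ⊓ P.N := ⟨P.sq_mem s hs, mul_mem sN sN⟩
  obtain ⟨m, hm⟩ := hH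
  have h1 : (s * s) ^ (2 * m + 1) = 1 := by
    rw [← hm]; exact orderOf_dvd_iff_pow_eq_one.1 (CfsgFT.orderOf_dvd_card' s2)
  have h2 : s ^ (2 * m + 1) = (s * s) ^ m * s := by rw [pow_succ, pow_mul, sq]
  have h3 : (s * s) ^ m ∈ P.B := pow_mem (P.sq_mem s hs) m
  have tt : s ^ (2 * m + 1) * s ^ (2 * m + 1) = 1 := by
    rw [← h1, ← sq s, ← pow_mul, two_mul (2 * m + 1), pow_add s (2 * m + 1)]
  let S : CfsgSZ.SB G :=
    { B := P.B, U := U, H := P.B ⊓ P.N, t := s ^ (2 * m + 1)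
      sdp := ⟨(CfsgH5.Nrm.of_normal_subgroupOf hUB hUn).mono inf_le_left,
        eq_bot_iff.2 ((inf_le_inf_left _ inf_le_right).trans hdisj.le), hsplit⟩
      nil := hUnil
      t_not := fun h => CfsgH1.s_notMem_B (P := P) ⟨s, hs⟩ (by
        rwa [h2, mul_mem_cancel_left h3] at h)
      tt := tt
      tH := fun h hh => ⟨by
        have := P.conj_mem _ (pow_mem sN (2 * m + 1)) h hh
        rwa [inv_eq_of_mul_eq_one_right tt] at this,
        mul_mem (mul_mem (pow_mem sN _) hh.2) (pow_mem sN _)⟩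
      two := fun g hg => by
        have h4 : g ∈ P.parabolic {((⟨s, hs⟩ : P.S) : G)} := by
          rw [← hS, CfsgH1.parabolic_S]; trivial
        obtain ⟨b, hb, b', hb', e⟩ := CfsgH1.mem_cell_iff.1
          (((CfsgH1.mem_parabolic_singleton _ g).1 h4).resolve_left hg)
        exact ⟨_, mul_mem hb (inv_mem h3), b', hb', by rw [e, h2]; simp [mul_assoc]⟩
      odd := ⟨m, hm⟩
      odd_idx := hind }
  obtain ⟨S', hq, h⟩ := S.res
  obtain ⟨n, -, hn⟩ := S'.exists_q_eq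
  rcases h with ⟨-, F, _, _, h, e⟩ | h | ⟨-, F, _, _, h, e⟩
  · exact .inl ⟨F, _, _, ⟨n, h.trans hn⟩, e⟩
  · exact .inr (.inl h.2.1)
  · rw [hn] at h e hq
    refine .inr (.inr ⟨F, _, _, n, ?_, h, e⟩)
    by_contra h
    interval_cases n <;> omega

end Cfsg.Agent.S0349
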