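import Cfsg.Statements.S3354
import Cfsg.Agent.H5.OB3
import Cfsg.Agent.H4.OA5
import Cfsg.Agent.H2.OB
import Cfsg.Agent.H7.OB2

set_option autoImplicit false
open Cfsg

namespace Cfsg.Agent.S3354

/-- In a finite doubly transitive permutation group of degree at least 3, a one-point stabilizer is either a local subgroup (the normalizer of a non-trivial subgroup of prime-power order) or almost simple: it has a non-abelian simple normal subgroup with trivial centralizer (so that it embeds between that simple group and its automorphism group). -/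
theorem result {G Ω : Type*} [Group G] [Finite G]
    [MulAction G Ω] [FaithfulSMul G Ω] [Finite Ω] (hΩ : 3 ≤ Nat.card Ω)
    (h2 : MulAction.IsMultiplyPretransitive G Ω 2) (a : Ω) :
    Cfsg.IsLocalSubgroup (MulAction.stabilizer G a) ∨
    ∃ N : Subgroup (MulAction.stabilizer G a), N.Normal ∧ IsSimpleGroup N ∧ ¬ IsMulCommutative N ∧
      Subgroup.centralizer (N : Set (MulAction.stabilizer G a)) = ⊥ := by
  haveI : Nontrivial Ω := Finite.one_lt_card_iff_nontrivial.1 (by omega)
  have two := CfsgOA.two_of h2
  refine CfsgOA.reduction hΩ h2 a (CfsgO5.P1red a) fun C hC => ?_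
  have ti := CfsgOB.alpha two hC
  refine CfsgOA.CF.caseI two hC ti ?_ fun x y xy T hT k hk kk ky U hU => ?_
  · by_contra hn
    refine CfsgO5.sA two hC fun x T hT t ht t2 t1 y ty => ?_
    by_contra yx
    exact hn ⟨x, T, hT, t, ht, t2, t1, y, yx, ty⟩
  · by_contra mv
    exact CfsgOA.CF.caseII two hC ti xy hT hk kk ky hU mv

end Cfsg.Agent.S3354
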