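import Cfsg.Statements.S3356
import Cfsg.Agent.L.Char2
import Cfsg.Agent.H6.Derang
import Cfsg.Agent.H4.Prim
import Cfsg.Agent.H4.MinNormal

set_option autoImplicit false
open Cfsg

namespace Cfsg.Agent.S3356

/-- Let G be a finite 3/2-transitive permutation group: G acts faithfully and transitively on a finite set, the point stabilizers are non-trivial, and for each point a all orbits of G_a on the remaining points have the same size. Suppose G has a regular normal subgroup N and G is not a Frobenius group (some two-point stabilizer is non-trivial). Then N is an elementary abelian p-group for some prime p, and every non-trivial normal subgroup of G contains N (so N is the unique minimal normal subgroup). -/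
theorem result {G Ω : Type*} [Group G] [Finite G]
    [MulAction G Ω] [FaithfulSMul G Ω] [Finite Ω] (htrans : MulAction.IsPretransitive G Ω)
    (hne : ∀ a : Ω, MulAction.stabilizer G a ≠ ⊥)
    (hhalf : ∀ a b c : Ω, b ≠ a → c ≠ a →
      Nat.card (MulAction.orbit (MulAction.stabilizer G a) b) = Nat.card (MulAction.orbit (MulAction.stabilizer G a) c))
    (N : Subgroup G) [hN : N.Normal] (hNt : MulAction.IsPretransitive N Ω) (hNr : ∀ a : Ω, MulAction.stabilizer N a = ⊥)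
    (hnotF : ∃ a b : Ω, a ≠ b ∧ MulAction.stabilizer G a ⊓ MulAction.stabilizer G b ≠ ⊥) :
    (∃ p : ℕ, p.Prime ∧ IsMulCommutative N ∧ ∀ x ∈ N, x ^ p = 1) ∧
    (∀ M : Subgroup G, M.Normal → M ≠ ⊥ → N ≤ M) := by
  classical
  open MulAction in
  obtain ⟨a, b, hab, hne2⟩ := hnotF
  have : Nonempty Ω := ⟨a⟩
  set H := stabilizer G a with hH
  set k := Nat.card (orbit H b) with hk
  have hst : ∀ y, y ≠ a → k * Nat.card ↥(H ⊓ stabilizer G y) = Nat.card H := by
    intro y hy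
    have h1 := (stabilizer H y).index_mul_card
    rw [index_stabilizer, ← Nat.card_coe_set_eq, hhalf a y b hy hab.symm] at h1
    rw [← h1]
    congr 1
    rw [← Nat.card_congr (Subgroup.subgroupOfEquivOfLe
      (inf_le_left : H ⊓ stabilizer G y ≤ H)).toEquiv, Subgroup.inf_subgroupOf_left]
    rfl
  have hk0 : 0 < k := Nat.pos_of_ne_zero fun h => by
    have := hst b hab.symm
    rw [h, zero_mul] at this
    exact Nat.card_pos.ne this
  have hcst : ∀ y z, y ≠ a → z ≠ a →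
      Nat.card ↥(H ⊓ stabilizer G y) = Nat.card ↥(H ⊓ stabilizer G z) := fun y z hy hz =>
    Nat.eq_of_mul_eq_mul_left hk0 ((hst y hy).trans (hst z hz).symm)
  have hdvd : ∀ S : Set Ω, a ∉ S → (∀ h ∈ H, ∀ x ∈ S, h • x ∈ S) → k ∣ S.ncard := by
    intro S ha hS
    refine CfsgH6.dvd_ncard_of_dvd_index_stabilizer (G := H) k S (fun g x hx => hS g g.2 x hx) ?_
    intro x hx
    rw [index_stabilizer, ← Nat.card_coe_set_eq, hhalf a x b (fun e => ha (e ▸ hx)) hab.symm]
  have hblock : ∀ S : Set Ω, a ∉ S → k.Coprime S.ncard →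
      (∀ h ∈ H, ∀ y ∈ S, h • y = y → ∀ z ∈ S, h • z ∈ S) →
      ∀ h ∈ H, ∀ y ∈ S, h • y = y → ∀ z ∈ S, h • z = z := by
    intro S ha hcop hS h hh y hy hhy z hz
    let L : Subgroup G := H ⊓ CfsgH4.setStab S
    have hL : ∀ x ∈ S, Nat.card (stabilizer L x) = Nat.card ↥(H ⊓ stabilizer G b) := by
      intro x hx
      rw [← hcst x b (fun e => ha (e ▸ hx)) hab.symm]
      have hle : H ⊓ stabilizer G x ≤ L := fun g hg => ⟨hg.1, hS g hg.1 x hx hg.2⟩
      rw [← Nat.card_congr (Subgroup.subgroupOfEquivOfLe hle).toEquiv]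
      congr 2
      ext g
      simp only [mem_stabilizer_iff, Subgroup.mem_subgroupOf, Subgroup.mem_inf]
      exact ⟨fun h => ⟨g.2.1, h⟩, fun h => h.2⟩
    have hidx : ∀ x ∈ S, (stabilizer L x).index = (stabilizer L z).index := by
      intro x hx
      have h1 := (stabilizer L x).index_mul_card
      have h2 := (stabilizer L z).index_mul_card
      rw [hL x hx] at h1
      rw [hL z hz] at h2
      exact Nat.eq_of_mul_eq_mul_right Nat.card_pos (h1.trans h2.symm)
    have h1 : (stabilizer L z).index ∣ S.ncard :=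
      CfsgH6.dvd_ncard_of_dvd_index_stabilizer (G := L) _ S (fun g x hx => g.2.2 x hx)
        fun x hx => (hidx x hx).symm.dvd
    have h2 : (stabilizer L z).index ∣ k := by
      have h3 := (stabilizer L z).index_mul_card
      have h4 : Nat.card L ∣ Nat.card H := Subgroup.card_dvd_of_le inf_le_left
      rw [← h3, hL z hz, ← hst b hab.symm] at h4
      exact Nat.dvd_of_mul_dvd_mul_right Nat.card_pos h4
    have h3 := Nat.eq_one_of_dvd_coprimes hcop h2 h1
    rw [Subgroup.index_eq_one] at h3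
    have : (⟨h, hh, hS h hh y hy hhy⟩ : L) ∈ stabilizer L z := h3 ▸ trivial
    exact this
  have hr : ∀ m ∈ N, m • a = a → m = 1 := by
    intro m hm h
    have : (⟨m, hm⟩ : N) ∈ stabilizer N a := h
    rw [hNr a, Subgroup.mem_bot] at this
    exact congrArg Subtype.val this
  have hinj : ∀ m ∈ N, ∀ m' ∈ N, m • a = m' • a → m = m' := by
    intro m hm m' hm' h
    have := hr (m'⁻¹ * m) (N.mul_mem (N.inv_mem hm') hm) (by rw [mul_smul, h, inv_smul_smul])
    exact (inv_mul_eq_one.1 this).symm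
  have hact : ∀ h ∈ H, ∀ n : G, h • n • a = (h * n * h⁻¹) • a := fun h hh n => by
    rw [mul_smul, mul_smul, mem_stabilizer_iff.1 (H.inv_mem hh)]
  have hncard : ∀ T : Set G, T ⊆ N → ((· • a) '' T).ncard = T.ncard := fun T hT =>
    Set.ncard_image_of_injOn fun x hx y hy e => hinj x (hT hx) y (hT hy) e
  -- group form of the two facts
  have hcop : ∀ U : Subgroup G, U ≤ N → (∀ h ∈ H, ∀ u ∈ U, h * u * h⁻¹ ∈ U) →
      k.Coprime (Nat.card U) := by
    intro U hU hinv
    have h1 := hdvd ((· • a) '' ((U : Set G) \ {1})) (by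
      rintro ⟨x, hx, e⟩
      exact hx.2 (hr x (hU hx.1) e)) (by
      rintro h hh _ ⟨x, hx, rfl⟩
      exact ⟨h * x * h⁻¹, ⟨hinv h hh x hx.1, by simpa using hx.2⟩, (hact h hh x).symm⟩)
    rw [hncard _ (fun x hx => hU hx.1), Set.ncard_diff_singleton_of_mem U.one_mem] at h1
    have h2 : (U : Set G).ncard = Nat.card U := rfl
    rw [h2] at h1
    have h3 : 0 < Nat.card U := Nat.card_pos
    exact (Nat.coprime_self_sub_left h3).2 (by simp) |>.coprime_dvd_left h1
  have hblock' : ∀ T : Set G, T ⊆ N → 1 ∉ T → k.Coprime T.ncard →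
      (∀ h ∈ H, ∀ y ∈ T, h * y * h⁻¹ = y → ∀ z ∈ T, h * z * h⁻¹ ∈ T) →
      ∀ h ∈ H, ∀ y ∈ T, h * y * h⁻¹ = y → ∀ z ∈ T, h * z * h⁻¹ = z := by
    intro T hT h1 hc hS h hh y hy e z hz
    have := hblock ((· • a) '' T) (by
      rintro ⟨x, hx, e⟩
      exact h1 (hr x (hT hx) e ▸ hx)) (by rwa [hncard T hT]) (by
      rintro h hh _ ⟨y, hy, rfl⟩ e _ ⟨z, hz, rfl⟩
      rw [hact h hh] at e
      exact ⟨_, hS h hh y hy (hinj _ (hN.conj_mem _ (hT hy) _) _ (hT hy) e) z hz,
        (hact h hh z).symm⟩) h hh _ ⟨y, hy, rfl⟩ (by rw [hact h hh, e]) _ ⟨z, hz, rfl⟩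
    rw [hact h hh] at this
    exact hinj _ (hN.conj_mem _ (hT hz) _) _ (hT hz) this
  have hsame : ∀ x ∈ N, ∀ y ∈ N, y ≠ 1 → x ≠ 1 → (∀ h ∈ H, h * x * h⁻¹ = x → h * y * h⁻¹ = y) →
      ∀ h ∈ H, h * y * h⁻¹ = y → h * x * h⁻¹ = x := by
    intro x hx y hy hy1 hx1 hxy h hh e
    have h1 : H ⊓ stabilizer G (x • a) = H ⊓ stabilizer G (y • a) := by
      refine Subgroup.eq_of_le_of_card_ge ?_ (hcst _ _ (fun e => hy1 (hr y hy e))
        (fun e => hx1 (hr x hx e))).le
      rintro g ⟨hg, hg'⟩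
      refine ⟨hg, ?_⟩
      have h2 : g • x • a = x • a := hg'
      rw [hact g hg] at h2
      change g • y • a = y • a
      rw [hact g hg, hxy g hg (hinj _ (hN.conj_mem _ hx _) _ hx h2)]
    have h2 : h ∈ H ⊓ stabilizer G (y • a) := ⟨hh, by
      change h • y • a = y • a
      rw [hact h hh, e]⟩
    rw [← h1] at h2
    have h3 : h • x • a = x • a := h2.2
    rw [hact h hh] at h3
    exact hinj _ (hN.conj_mem _ hx _) _ hx h3
  have hmove : ∀ x ∈ N, x ≠ 1 → ∃ h ∈ H, h * x * h⁻¹ = x ∧ ∃ y ∈ N, h * y * h⁻¹ ≠ y := by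
    intro x hx hx1
    have h1 : H ⊓ stabilizer G (x • a) ≠ ⊥ := by
      intro e
      apply hne2
      rw [← Subgroup.card_eq_one] at e ⊢
      rw [← e]; exact hcst _ _ hab.symm (fun e => hx1 (hr x hx e))
    obtain ⟨⟨h, hh, hh'⟩, h2⟩ := Subgroup.ne_bot_iff_exists_ne_one.1 h1
    have h3 : h • x • a = x • a := hh'
    rw [hact h hh] at h3
    refine ⟨h, hh, hinj _ (hN.conj_mem _ hx _) _ hx h3, ?_⟩
    by_contra hcon
    push Not at hcon
    refine h2 (Subtype.ext (CfsgH4.eq_one_of_centralizes_transitive (Ω := Ω) N (fun n hn => ?_) hh))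
    exact (mul_inv_eq_iff_eq_mul.1 (hcon n hn)).symm
  have hirr : ∀ U : Subgroup G, U ≤ N → (∀ h ∈ H, ∀ u ∈ U, h * u * h⁻¹ ∈ U) → U = ⊥ ∨ U = N := by
    intro U hU hinv
    by_contra hcon
    push Not at hcon
    obtain ⟨⟨u, hu⟩, hu1⟩ := Subgroup.ne_bot_iff_exists_ne_one.1 hcon.1
    have hu1 : u ≠ 1 := fun e => hu1 (Subtype.ext e)
    have key : ∀ v ∈ N, v ∉ U → ∀ h ∈ H, h * v * h⁻¹ = v → ∀ w ∈ U, h * w * h⁻¹ = w := by
      intro v hv hvU h hh e w hw
      have := hblock' ((v * ·) '' (U : Set G)) (by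
        rintro _ ⟨x, hx, rfl⟩; exact N.mul_mem hv (hU hx)) (by
        rintro ⟨x, hx, e⟩
        exact hvU (eq_inv_of_mul_eq_one_left e ▸ U.inv_mem hx)) (by
        rw [Set.ncard_image_of_injective _ (mul_right_injective v)]
        exact hcop U hU hinv) (by
        rintro h hh _ ⟨y, hy, rfl⟩ e _ ⟨z, hz, rfl⟩
        refine ⟨y * (h * (y⁻¹ * z) * h⁻¹), U.mul_mem hy (hinv h hh _ (U.mul_mem (U.inv_mem hy) hz)),
          ?_⟩
        simp only at e ⊢
        rw [← mul_assoc, ← e]; group) h hh v ⟨1, U.one_mem, mul_one v⟩ e (v * w) ⟨w, hw, rfl⟩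
      calc h * w * h⁻¹ = (h * v * h⁻¹)⁻¹ * (h * (v * w) * h⁻¹) := by group
        _ = w := by rw [this, e]; group
    obtain ⟨v, hv, hvU⟩ := SetLike.exists_of_lt (lt_of_le_of_ne hU hcon.2)
    obtain ⟨h, hh, e, y, hy, e'⟩ := hmove u (hU hu) hu1
    have key2 : ∀ v ∈ N, v ∉ U → h * v * h⁻¹ = v := fun v hv hvU =>
      hsame v hv u (hU hu) hu1 (fun e => hvU (e ▸ U.one_mem))
        (fun g hg e => key v hv hvU g hg e u hu) h hh e
    by_cases hyU : y ∈ U
    · exact e' (key v hv hvU h hh (key2 v hv hvU) y hyU)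
    · exact e' (key2 y hy hyU)
  have hclass : ∀ x ∈ N, x ≠ 1 → ∀ h ∈ H, h * x * h⁻¹ = x → ∀ n ∈ N,
      h * (n * x * n⁻¹) * h⁻¹ = n * x * n⁻¹ := by
    intro x hx hx1 h hh e n hn
    let T : Set G := {y | ∃ n ∈ N, y = n * x * n⁻¹}
    refine hblock' T (by rintro _ ⟨n, hn, rfl⟩; exact hN.conj_mem x hx n) (by
      rintro ⟨n, -, e⟩
      exact hx1 (by simpa using e.symm)) ?_ ?_ h hh x ⟨1, N.one_mem, by simp⟩ e _ ⟨n, hn, rfl⟩
    · refine (hcop N le_rfl fun h _ u hu => hN.conj_mem u hu h).coprime_dvd_right ?_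
      have h1 := CfsgL.card_conj_eq_index (G := N) ⟨x, hx⟩
      have h2 : T.ncard = Nat.card {g : N // IsConj (⟨x, hx⟩ : N) g} := by
        rw [← Nat.card_coe_set_eq]
        symm
        refine Nat.card_congr (Equiv.ofBijective (fun g => ⟨(g.1 : G), by
          obtain ⟨c, hc⟩ := isConj_iff.1 g.2
          exact ⟨c, c.2, (congrArg Subtype.val hc).symm⟩⟩) ⟨fun g g' e => Subtype.ext (Subtype.ext
            (congrArg (fun t : T => (t : G)) e)), ?_⟩)
        rintro ⟨_, n, hn, rfl⟩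
        exact ⟨⟨⟨_, hN.conj_mem x hx n⟩, isConj_iff.2 ⟨⟨n, hn⟩, rfl⟩⟩, rfl⟩
      rw [h2, h1]
      exact Subgroup.index_dvd_card _
    · rintro g hg _ ⟨m, hm, rfl⟩ e _ ⟨m', hm', rfl⟩
      refine ⟨g * (m' * m⁻¹) * g⁻¹ * m, N.mul_mem (hN.conj_mem _ (N.mul_mem hm' (N.inv_mem hm)) g)
        hm, ?_⟩
      calc g * (m' * x * m'⁻¹) * g⁻¹ = g * (m' * m⁻¹) * g⁻¹ * (g * (m * x * m⁻¹) * g⁻¹) *
            (g * (m' * m⁻¹) * g⁻¹)⁻¹ := by group
        _ = _ := by rw [e]; group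
  have hcomm : ∀ x ∈ N, ∀ y ∈ N, x * y = y * x := by
    intro x hx
    by_cases hx1 : x = 1
    · simp [hx1]
    obtain ⟨h, hh, e, w, hw, e'⟩ := hmove x hx hx1
    have key : ∀ y ∈ N, (∃ g ∈ H, g * x * g⁻¹ = x ∧ g * y * g⁻¹ ≠ y) → x * y = y * x := by
      rintro y hy ⟨g, hg, e1, e2⟩
      by_contra hne'
      have hy1 : y ≠ 1 := by rintro rfl; simp at hne'
      have hc1 : x * y * x⁻¹ * y⁻¹ ≠ 1 := fun e => hne' (by
        rwa [mul_inv_eq_one, mul_inv_eq_iff_eq_mul] at e)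
      have hcN : x * y * x⁻¹ * y⁻¹ ∈ N := N.mul_mem (hN.conj_mem y hy x) (N.inv_mem hy)
      apply e2
      refine hsame y hy _ hcN hc1 hy1 (fun f hf e => ?_) g hg ?_
      · have := hclass y hy hy1 f hf e x hx
        calc f * (x * y * x⁻¹ * y⁻¹) * f⁻¹ = f * (x * y * x⁻¹) * f⁻¹ * (f * y * f⁻¹)⁻¹ := by group
          _ = _ := by rw [this, e]
      · have := hclass x hx hx1 g hg e1 y hy
        calc g * (x * y * x⁻¹ * y⁻¹) * g⁻¹ = (g * x * g⁻¹) * (g * (y * x * y⁻¹) * g⁻¹)⁻¹ := by group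
          _ = _ := by rw [this, e1]; group
    intro y hy
    by_cases hy' : h * y * h⁻¹ = y
    · have h1 := key w hw ⟨h, hh, e, e'⟩
      have h2 := key (y * w) (N.mul_mem hy hw) ⟨h, hh, e, fun e2 => e' (by
        calc h * w * h⁻¹ = (h * y * h⁻¹)⁻¹ * (h * (y * w) * h⁻¹) := by group
          _ = w := by rw [e2, hy']; group)⟩
      apply mul_right_cancel (b := w)
      rw [mul_assoc, h2, mul_assoc, ← h1, mul_assoc]
    · exact key y hy ⟨h, hh, e, hy'⟩
  have hNb : N ≠ ⊥ := by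
    rintro rfl
    obtain ⟨⟨n, hn⟩, e⟩ := hNt.exists_smul_eq a b
    rw [Subgroup.mem_bot] at hn
    subst hn
    exact hab ((one_smul G a).symm.trans e)
  constructor
  · obtain ⟨p, hp, hd⟩ := CfsgH4.exists_prime_dvd_card_of_ne_bot hNb
    refine ⟨p, hp, ⟨⟨fun x y => Subtype.ext (hcomm x x.2 y y.2)⟩⟩, fun x hx => ?_⟩
    rcases hirr (CfsgH4.torsionIn N hcomm p) (fun x hx => hx.1) (fun h _ u hu =>
      (CfsgH4.torsionIn_normal N hcomm p).conj_mem u hu h) with h | h
    · exact absurd h (CfsgH4.torsionIn_ne_bot N hcomm hp hd)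
    · rw [← h] at hx; exact hx.2
  · intro M hM hMb
    rcases hirr (M ⊓ N) inf_le_right (fun h _ u hu =>
      ⟨hM.conj_mem u hu.1 h, hN.conj_mem u hu.2 h⟩) with h | h
    · exfalso
      apply hMb
      rw [← h]
      refine le_antisymm (fun m hm => ⟨hm, ?_⟩) inf_le_left
      exact CfsgH4.centralizer_le_of_comm_transitive (Ω := Ω) N hcomm fun n hn =>
        (Subgroup.commute_of_normal_of_disjoint M N hM hN (disjoint_iff.2 h) m n hm hn).symm
    · exact h ▸ inf_le_left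

end Cfsg.Agent.S3356
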