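import Cfsg.Statements.S3357
import Cfsg.Agent.H3.FCProps

set_option autoImplicit false
open Cfsg

namespace Cfsg.Agent.S3357

/-- Let G be a finite group that occurs as a Frobenius complement. Then G has a faithful irreducible representation over an algebraic closure of the rationals in which no non-identity element of G has 1 as an eigenvalue: there are n ≥ 1 and an injective homomorphism ρ from G to GL(n) over that field, with no invariant subspace other than 0 and the whole space, such that for g ≠ 1 the only vector fixed by ρ(g) is 0. -/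
theorem result {G : Type*} [Group G] [Finite G]
    (hFC : ∃ (L : Type) (_ : Group L) (_ : Finite L) (H : Subgroup L), Cfsg.IsFrobeniusComplement H ∧ Nonempty (G ≃* H)) :
    ∃ (n : ℕ) (ρ : G →* GL (Fin n) (AlgebraicClosure ℚ)), 0 < n ∧ Function.Injective ρ ∧
      (∀ W : Submodule (AlgebraicClosure ℚ) (Fin n → AlgebraicClosure ℚ),
        (∀ g : G, ∀ w ∈ W, ((ρ g : GL (Fin n) (AlgebraicClosure ℚ)) : Matrix (Fin n) (Fin n) (AlgebraicClosure ℚ)).mulVec w ∈ W) → W = ⊥ ∨ W = ⊤) ∧
      ∀ g : G, g ≠ 1 → ∀ v : Fin n → AlgebraicClosure ℚ,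
        ((ρ g : GL (Fin n) (AlgebraicClosure ℚ)) : Matrix (Fin n) (Fin n) (AlgebraicClosure ℚ)).mulVec v = v → v = 0 := by
  classical
  obtain ⟨V, _, _, _, ρ, hnt, hirr, hfpf⟩ :=
    (CfsgH3.isFC_of_exists hFC).exists_rep (AlgebraicClosure ℚ)
  let b := Module.finBasis (AlgebraicClosure ℚ) V
  let σ : G →* Matrix (Fin (Module.finrank (AlgebraicClosure ℚ) V))
      (Fin (Module.finrank (AlgebraicClosure ℚ) V)) (AlgebraicClosure ℚ) :=
    (LinearMap.toMatrixAlgEquiv b).toMonoidHom.comp ρ
  have hσ : ∀ (g : G) (v : V), (σ g).mulVec (b.equivFun v) = b.equivFun (ρ g v) := fun g v =>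
    LinearMap.toMatrix_mulVec_repr b b (ρ g) v
  have hfix : ∀ g : G, g ≠ 1 → ∀ v, (σ g).mulVec v = v → v = 0 := by
    intro g hg v hv
    obtain ⟨w, rfl⟩ := b.equivFun.surjective v
    rw [hσ] at hv
    rw [hfpf g hg w (b.equivFun.injective hv), map_zero]
  refine ⟨_, σ.toHomUnits, Module.finrank_pos, ?_, ?_, hfix⟩
  · rw [injective_iff_map_eq_one]
    intro g hg
    by_contra hg1
    obtain ⟨v, hv⟩ := exists_ne (0 : V)
    have h1 : σ g = 1 := congrArg Units.val hg
    have := hfix g hg1 (b.equivFun v) (by rw [h1, Matrix.one_mulVec])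
    exact hv (b.equivFun.map_eq_zero_iff.1 this)
  · intro W hW
    let W' : Subrepresentation ρ := ⟨W.comap b.equivFun.toLinearMap, fun g v hv => by
      have := hW g _ hv
      change (σ g).mulVec (b.equivFun v) ∈ W at this
      rw [hσ] at this
      exact this⟩
    have hinj := Submodule.comap_injective_of_surjective (f := b.equivFun.toLinearMap)
      b.equivFun.surjective
    rcases hirr.eq_bot_or_eq_top W' with h | h
    · left
      apply hinj
      have : W.comap b.equivFun.toLinearMap = ⊥ := congrArg Subrepresentation.toSubmodule h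
      rw [this, Submodule.comap_bot, LinearEquiv.ker]
    · right
      apply hinj
      exact congrArg Subrepresentation.toSubmodule h

end Cfsg.Agent.S3357
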