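import Cfsg.Statements.S3361
import Cfsg.Agent.H8.HuppertCore
import Cfsg.Agent.H8.SL23
import Cfsg.Agent.H8.PGroupMaxClass

set_option autoImplicit false
open Cfsg

namespace Cfsg.Agent.S3361

open CfsgH8 in
theorem sign_surj : Function.Surjective
    ((Equiv.Perm.sign : Equiv.Perm Q8 →* ℤˣ).comp (MulAut.toPerm Q8)) := by
  intro s
  rcases Int.units_eq_one_or s with rfl | rfl
  · exact ⟨1, map_one _⟩
  · let β : MulAut Q8 := q8Aut (x := QuaternionGroup.xa 0) (y := QuaternionGroup.a 1)
      (by decide) (by decide) (by decide)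
    refine ⟨β, ?_⟩
    have hev : ∀ z, β z = q8Ev (QuaternionGroup.xa 0) (QuaternionGroup.a 1) z := by
      intro z
      obtain ⟨i, rfl | rfl⟩ := q8_eq_pow z
      · rw [map_pow, q8Aut_a, q8Ev_a]
      · rw [map_mul, map_pow, q8Aut_a, q8Aut_xa, q8Ev_xa]
    have h : MulAut.toPerm Q8 β = Equiv.swap (QuaternionGroup.a 1) (QuaternionGroup.xa 0) *
        Equiv.swap (QuaternionGroup.a 3) (QuaternionGroup.xa 2) *
        Equiv.swap (QuaternionGroup.xa 1) (QuaternionGroup.xa 3) := by
      ext z
      refine (hev z).trans ?_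
      revert z
      decide +kernel
    rw [MonoidHom.comp_apply, h, map_mul, map_mul, Equiv.Perm.sign_swap (by decide),
      Equiv.Perm.sign_swap (by decide), Equiv.Perm.sign_swap (by decide)]
    decide

theorem exists_index_two_of_surj {G : Type*} [Group G] (f : G →* ℤˣ)
    (hf : Function.Surjective f) : ∃ N : Subgroup G, N.Normal ∧ N.index = 2 := by
  refine ⟨f.ker, inferInstance, ?_⟩
  rw [Subgroup.index_ker, MonoidHom.range_eq_top.mpr hf, Subgroup.card_top,
    Nat.card_eq_fintype_card, Fintype.card_units_int]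

theorem exists_index_two_of_card {G H : Type*} [Group G] [Group H] [Finite H] (f : G →* H)
    {p n : ℕ} (hp : p.Prime) (h : Nat.card f.range = 2 * p ^ n) :
    ∃ N : Subgroup G, N.Normal ∧ N.index = 2 := by
  have : Fact p.Prime := ⟨hp⟩
  obtain ⟨K, hK⟩ := Sylow.exists_subgroup_card_pow_prime (G := f.range) p (n := n)
    (Dvd.intro_left 2 h.symm)
  have h1 : K.index = 2 := by
    have := K.card_mul_index
    rw [hK, h, mul_comm] at this
    exact Nat.eq_of_mul_eq_mul_right (pow_pos hp.pos n) this
  have h2 : (K.comap f.rangeRestrict).index = 2 := by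
    rw [Subgroup.index_comap_of_surjective _ f.rangeRestrict_surjective, h1]
  exact ⟨_, Subgroup.normal_of_index_eq_two h2, h2⟩


/-- Let q be a prime and V a non-trivial finite vector space over the field with q elements, and let G be a finite solvable group acting faithfully and linearly on V and regularly on the non-zero vectors (transitively, with only the identity fixing a non-zero vector). Then either V can be identified with the additive group of a finite field F so that every element of G acts as x ↦ a·σ(x) (a ∈ F, σ a field automorphism), or V has 5^2, 7^2, 11^2 or 23^2 elements. Moreover, if q ≠ 2 then G has a normal subgroup of index 2, except that when V has 25 elements G may be isomorphic to SL(2,3) and when V has 121 elements G may be isomorphic to SL(2,3) × C₅. -/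
theorem result
    (q : ℕ) [Fact q.Prime] {V : Type*} [AddCommGroup V] [Module (ZMod q) V] [Finite V] [Nontrivial V]
    {G : Type*} [Group G] [Finite G] (hsol : Group.IsSolvable G)
    (ρ : G →* (V ≃ₗ[ZMod q] V)) (hρ : Function.Injective ρ)
    (htrans : ∀ v w : V, v ≠ 0 → w ≠ 0 → ∃ g : G, ρ g v = w)
    (hreg : ∀ v : V, v ≠ 0 → ∀ g : G, ρ g v = v → g = 1) :
    ((∃ (F : Type) (_ : Field F) (_ : Fintype F) (e : V ≃+ F),
        ∀ g : G, ∃ (a : F) (σ : F ≃+* F), ∀ v : V, e (ρ g v) = a * σ (e v)) ∨
      Nat.card V ∈ ({25, 49, 121, 529} : Set ℕ)) ∧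
    (q ≠ 2 → (∃ N : Subgroup G, N.Normal ∧ N.index = 2) ∨
      (Nat.card V = 25 ∧ Nonempty (G ≃* Matrix.SpecialLinearGroup (Fin 2) (ZMod 3))) ∨
      (Nat.card V = 121 ∧ Nonempty (G ≃* Matrix.SpecialLinearGroup (Fin 2) (ZMod 3) × Multiplicative (ZMod 5)))) := by
  have hq : q.Prime := Fact.out
  obtain ⟨v0, hv0⟩ := exists_ne (0 : V)
  have hG : Nat.card G = Nat.card V - 1 := by
    have h1 := CfsgH8.card_sub_one_dvd_of_trans ρ htrans v0 hv0
    have h2 : CfsgH8.vecStab ρ v0 = ⊥ := by
      rw [eq_bot_iff]
      intro g hg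
      exact hreg v0 hv0 g hg
    rw [h2, Subgroup.card_bot, mul_one] at h1
    exact h1.symm
  rcases CfsgH8.huppert_core hsol hρ htrans (by
    intro p _ P hPn hPp hc hna
    have hp : p.Prime := Fact.out
    have hc' : ∀ a b c : P, c * (a * b * a⁻¹ * b⁻¹) = (a * b * a⁻¹ * b⁻¹) * c :=
      fun a b c => Subtype.ext (hc a a.2 b b.2 c c.2)
    have hna' : ¬ ∀ a b : P, a * b = b * a := fun h =>
      hna fun a ha b hb => congrArg Subtype.val (h ⟨a, ha⟩ ⟨b, hb⟩)
    have hpq : p ≠ q := by
      rintro rfl
      apply hna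
      rw [CfsgH8.eq_bot_of_normal_char hρ htrans P hPp]
      intro a ha b hb
      rw [Subgroup.mem_bot.mp ha, Subgroup.mem_bot.mp hb]
    rcases CfsgH8.cyclic_or_quaternion_of_no_pp hPp
      (CfsgH8.mem_zpowers_of_semiregular (ρ := ρ.comp P.subtype) hp
        (CfsgH8.natCast_zmod_ne_zero hp hpq)
        (fun v hv g hg => Subtype.ext (hreg v hv g hg))) with h | ⟨-, n, -, ⟨e⟩⟩
    · exact absurd mul_comm' hna'
    · have := CfsgH8.q8_of_quaternion_class_two e hc' hna'
      rw [this] at e
      exact ⟨e⟩) with h | ⟨P, hPn, ⟨e⟩, hPtop, hUc, -, hU, hV, h⟩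
  · refine ⟨Or.inl h, fun hq2 => Or.inl ?_⟩
    obtain ⟨F, _, _, e, he⟩ := h
    classical
    have hchar : ringChar F ≠ 2 := by
      intro h2
      have h3 : ((q : ℕ) : F) = 0 := by
        rw [← nsmul_one, ← e.apply_symm_apply 1, ← map_nsmul, ← Nat.cast_smul_eq_nsmul (ZMod q),
          ZMod.natCast_self, zero_smul, map_zero]
      rw [ringChar.spec, h2, Nat.prime_dvd_prime_iff_eq Nat.prime_two hq] at h3
      exact hq2 h3.symm
    have hne : ∀ g : G, e (ρ g (e.symm 1)) ≠ 0 := by
      intro g
      simp
    have hσ : ∀ (σ : F ≃+* F) (x : F), quadraticChar F (σ x) = quadraticChar F x := by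
      intro σ x
      by_cases hx : x = 0
      · simp [hx]
      have hsq : IsSquare (σ x) ↔ IsSquare x :=
        ⟨fun h => by simpa using h.map σ.symm, fun h => h.map σ⟩
      by_cases hx2 : IsSquare x
      · rw [(quadraticChar_one_iff_isSquare hx).mpr hx2,
          (quadraticChar_one_iff_isSquare (by simpa using hx)).mpr (hsq.mpr hx2)]
      · rw [quadraticChar_neg_one_iff_not_isSquare.mpr hx2,
          quadraticChar_neg_one_iff_not_isSquare.mpr (mt hsq.mp hx2)]
    let f : G →* ℤ :=
      { toFun := fun g => quadraticChar F (e (ρ g (e.symm 1)))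
        map_one' := by simp
        map_mul' := by
          intro g h
          obtain ⟨a, σ, hg⟩ := he g
          rw [CfsgH8.rho_mul, hg, hg (e.symm 1), e.apply_symm_apply, map_one σ, mul_one, map_mul, hσ] }
    refine exists_index_two_of_surj f.toHomUnits fun s => ?_
    rcases Int.units_eq_one_or s with rfl | rfl
    · exact ⟨1, map_one _⟩
    · obtain ⟨x, hx⟩ := FiniteField.exists_nonsquare hchar
      have hx0 : x ≠ 0 := by
        rintro rfl
        exact hx IsSquare.zero
      obtain ⟨g, hg⟩ := htrans (e.symm 1) (e.symm x) (by simp) (by simpa using hx0)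
      refine ⟨g, Units.ext ?_⟩
      show quadraticChar F (e (ρ g (e.symm 1))) = -1
      rw [hg, e.apply_symm_apply, quadraticChar_neg_one_iff_not_isSquare.mpr hx]
  · have hP8 : Nat.card P = 8 := by rw [Nat.card_congr e.toEquiv, CfsgH8.q8_card]
    have hq3 : q ≠ 3 := by
      rintro rfl
      apply hPtop
      apply Subgroup.eq_top_of_card_eq
      rw [hP8, hG, hV]
      rfl
    refine ⟨Or.inr ?_, fun _ => ?_⟩
    · rcases h with rfl | rfl | rfl | rfl | rfl
      · exact absurd rfl hq3
      all_goals simp [hV]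
    set U := Subgroup.centralizer (P : Set G) with hUdef
    let φ : G →* MulAut CfsgH8.Q8 := (MulAut.congr e).toMonoidHom.comp MulAut.conjNormal
    have hker : φ.ker = U := by
      ext g
      rw [MonoidHom.mem_ker, MonoidHom.comp_apply, MulEquiv.coe_toMonoidHom,
        map_eq_one_iff _ (MulAut.congr e).injective, MulEquiv.ext_iff, Subgroup.mem_centralizer_iff]
      constructor
      · intro h x hx
        have := congrArg Subtype.val (h ⟨x, hx⟩)
        simp only [MulAut.conjNormal_apply, MulAut.one_apply] at this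
        exact (mul_inv_eq_iff_eq_mul.mp this).symm
      · intro h x
        apply Subtype.ext
        simp only [MulAut.conjNormal_apply, MulAut.one_apply]
        exact mul_inv_eq_iff_eq_mul.mpr (h x x.2).symm
    have hA : Nat.card U * Nat.card φ.range = q ^ 2 - 1 := by
      rw [← Subgroup.index_ker, hker, Subgroup.card_mul_index, hG, hV]
    have hA24 : Nat.card φ.range ∣ 24 := by
      rw [← CfsgH8.card_mulAut_q8]
      exact Subgroup.card_subgroup_dvd_card _
    have : Finite (MulAut CfsgH8.Q8) := Nat.finite_of_card_ne_zero (by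
      rw [CfsgH8.card_mulAut_q8]; norm_num)
    have hcases : Nat.card φ.range = 24 ∨ Nat.card φ.range = 8 ∨ Nat.card φ.range = 6 ∨
        (q = 5 ∧ Nat.card U = 2) ∨ (q = 11 ∧ Nat.card U = 10) := by
      generalize Nat.card φ.range = m at hA hA24
      generalize Nat.card U = u at hA hU
      have h1 := Nat.le_of_dvd (by norm_num) hA24
      have h2 := Nat.le_of_dvd (Nat.sub_pos_of_lt hq.one_lt) hU
      rcases h with rfl | rfl | rfl | rfl | rfl
      · exact absurd rfl hq3
      all_goals interval_cases m <;> 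
        first | omega | (obtain rfl : u = 4 := (by omega); exact absurd hU (by norm_num))
    have hy : (q = 5 ∧ Nat.card U = 2) ∨ (q = 11 ∧ Nat.card U = 10) →
        ∃ f : Matrix.SpecialLinearGroup (Fin 2) (ZMod 3) →* G, Function.Injective f := by
      intro h
      have h3 : 3 ∣ Nat.card G := by
        rw [hG, hV]
        rcases h with ⟨rfl, -⟩ | ⟨rfl, -⟩ <;> norm_num
      obtain ⟨y, hy⟩ := exists_prime_orderOf_dvd_card' (hp := ⟨Nat.prime_three⟩) 3 h3
      refine CfsgH8.exists_SL23_hom P e (y := y) (hy ▸ pow_orderOf_eq_one y) fun hyU => ?_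
      have h4 := Subgroup.orderOf_dvd_natCard _ hyU
      rw [hy, ← hUdef] at h4
      rcases h with ⟨-, h⟩ | ⟨-, h⟩ <;> rw [h] at h4 <;> norm_num at h4
    rcases hcases with h1 | h1 | h1 | h1 | h1
    · left
      have htop : φ.range = ⊤ := Subgroup.eq_top_of_card_eq _ (by rw [h1, CfsgH8.card_mulAut_q8])
      exact exists_index_two_of_surj (((Equiv.Perm.sign : Equiv.Perm CfsgH8.Q8 →* ℤˣ).comp
        (MulAut.toPerm CfsgH8.Q8)).comp φ) (sign_surj.comp (MonoidHom.range_eq_top.mp htop))
    · exact Or.inl (exists_index_two_of_card φ (n := 2) Nat.prime_two h1)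
    · exact Or.inl (exists_index_two_of_card φ (n := 1) Nat.prime_three h1)
    · obtain ⟨f, hf⟩ := hy (Or.inl h1)
      have hV' : Nat.card V = 25 := by rw [hV, h1.1]; rfl
      exact Or.inr (Or.inl ⟨hV', ⟨(MulEquiv.ofBijective f ((Nat.bijective_iff_injective_and_card f).mpr
        ⟨hf, by rw [CfsgH8.card_SL23, hG, hV']⟩)).symm⟩⟩)
    · obtain ⟨f, hf⟩ := hy (Or.inr h1)
      have hV' : Nat.card V = 121 := by rw [hV, h1.1]; rfl
      refine Or.inr (Or.inr ⟨hV', ?_⟩)
      obtain ⟨z, hz⟩ := exists_prime_orderOf_dvd_card' (G := U) (hp := ⟨Nat.prime_five⟩) 5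
        (by rw [h1.2]; norm_num)
      have hz' : orderOf (z : G) = 5 := by rw [Subgroup.orderOf_coe, hz]
      have : Fact (Nat.Prime 5) := ⟨Nat.prime_five⟩
      let ι : Multiplicative (ZMod 5) →* G := (Subgroup.zpowers (z : G)).subtype.comp
        (mulEquivOfPrimeCardEq (p := 5) (G := Multiplicative (ZMod 5)) (by simp)
          (by rw [Nat.card_zpowers, hz'])).toMonoidHom
      have hι : Function.Injective ι :=
        (Subgroup.subtype_injective _).comp (MulEquiv.injective _)
      have hιc : ∀ t, ι t ∈ Subgroup.center G := fun t =>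
        hUc ((Subgroup.zpowers_le_of_mem z.2) (Subtype.prop _))
      let F := f.noncommCoprod ι fun m n => Subgroup.mem_center_iff.mp (hιc n) (f m)
      have hF : Function.Injective F := by
        rw [injective_iff_map_eq_one]
        rintro ⟨m, n⟩ h
        change f m * ι n = 1 at h
        obtain ⟨h2, h3⟩ := CfsgH8.eq_one_of_mul_eq_one_coprime (m := 24) (n := 5) (by norm_num)
          (by rw [← map_pow, ← CfsgH8.card_SL23, pow_card_eq_one', map_one])
          (by rw [← map_pow, show n ^ 5 = 1 by simpa using pow_card_eq_one' (x := n), map_one]) h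
        rw [(injective_iff_map_eq_one f).mp hf m h2, (injective_iff_map_eq_one ι).mp hι n h3]
        rfl
      exact ⟨(MulEquiv.ofBijective F ((Nat.bijective_iff_injective_and_card F).mpr
        ⟨hF, by rw [Nat.card_prod, CfsgH8.card_SL23, hG, hV']; simp⟩)).symm⟩

end Cfsg.Agent.S3361
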