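import Cfsg.Statements.S3370
import Cfsg.Agent.S3371

set_option autoImplicit false
open Cfsg

namespace Cfsg.Agent.S3370

/-- Let q be a prime, V a non-trivial finite vector space over the field with q elements, and G a non-trivial finite p-group (p prime) acting faithfully and linearly on V and transitively on the non-zero vectors. Then either q = 2 and G has prime order p = |V| − 1; or p = 2, V has q elements with q = 2^m + 1 and G is cyclic of order 2^m; or p = 2, q = 3, V has 9 elements and G is cyclic of order 8, quaternion of order 8, or semidihedral of order 16. -/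
theorem result (q : ℕ) [Fact q.Prime] {V : Type*} [AddCommGroup V] [Module (ZMod q) V] [Finite V] [Nontrivial V]
    {G : Type*} [Group G] [Finite G] [Nontrivial G] (p : ℕ) [Fact p.Prime] (hG : IsPGroup p G)
    (ρ : G →* (V ≃ₗ[ZMod q] V)) (hρ : Function.Injective ρ)
    (htrans : ∀ v w : V, v ≠ 0 → w ≠ 0 → ∃ g : G, ρ g v = w) :
    (q = 2 ∧ p = Nat.card V - 1 ∧ Nat.card G = p) ∨
    (p = 2 ∧ Nat.card V = q ∧ (∃ m : ℕ, q = 2 ^ m + 1 ∧ Nat.card G = 2 ^ m) ∧ IsCyclic G) ∨
    (p = 2 ∧ q = 3 ∧ Nat.card V = 9 ∧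
      ((IsCyclic G ∧ Nat.card G = 8) ∨ Nonempty (G ≃* QuaternionGroup 2) ∨ (Cfsg.IsQuasiDihedral G ∧ Nat.card G = 16))) := by
  have hp : p.Prime := Fact.out
  have hq : q.Prime := Fact.out
  have horb : ∀ v : V, v ≠ 0 → {u : V | ∃ g : G, ρ g v = u} = Set.univ \ {0} := by
    intro v hv
    ext u
    simp only [Set.mem_setOf_eq, Set.mem_diff, Set.mem_univ, Set.mem_singleton_iff, true_and]
    exact ⟨by rintro ⟨g, rfl⟩; simpa using hv, fun hu => htrans v u hv hu⟩
  have hcardV : Nat.card (Set.univ \ {0} : Set V) + 1 = Nat.card V := by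
    rw [Nat.card_coe_set_eq, Set.ncard_diff_singleton_add_one (Set.mem_univ _), Set.ncard_univ]
  set N := Nat.card (Set.univ \ {0} : Set V) with hN
  have hos : ∀ v : V, v ≠ 0 → N * Nat.card (CfsgH8.vecStab ρ v) = Nat.card G := by
    intro v hv
    rw [hN, ← horb v hv]
    exact CfsgH8.card_orbit_mul_card_vecStab ρ v
  obtain ⟨v0, hv0⟩ := exists_ne (0 : V)
  obtain ⟨n, hn⟩ := IsPGroup.iff_card.mp hG
  obtain ⟨k, -, hk⟩ := (Nat.dvd_prime_pow hp).mp (hn ▸ Dvd.intro _ (hos v0 hv0))
  have : Module.Finite (ZMod q) V := Module.Finite.of_finite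
  set d := Module.finrank (ZMod q) V with hd
  have hcV : Nat.card V = q ^ d := by
    rw [Module.natCard_eq_pow_finrank (K := ZMod q), Nat.card_zmod]
  have hd0 : d ≠ 0 := Module.finrank_pos.ne'
  have heq : q ^ d = p ^ k + 1 := by rw [← hcV, ← hcardV, hk]
  have hk0 : k ≠ 0 := by
    rintro rfl
    obtain ⟨g, hg⟩ := exists_ne (1 : G)
    apply hg
    refine CfsgH8.eq_one_of_rho hρ fun w => ?_
    by_cases hw : w = 0
    · simp [hw]
    have h1 : CfsgH8.vecStab ρ w = ⊤ := by
      rw [← Subgroup.card_eq_iff_eq_top, ← hos w hw, hk, pow_zero, one_mul]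
    exact CfsgH8.mem_vecStab.mp (h1 ▸ Subgroup.mem_top g)
  have hregcard : (∀ v : V, v ≠ 0 → ∀ g : G, ρ g v = v → g = 1) → Nat.card G = N := by
    intro h
    have : CfsgH8.vecStab ρ v0 = ⊥ := eq_bot_iff.mpr fun g hg => h v0 hv0 g hg
    rw [← hos v0 hv0, this, Subgroup.card_bot, mul_one]
  have hpq : p ≠ q := by
    rintro rfl
    have h1 : p ∣ p ^ k + 1 := heq ▸ dvd_pow_self p hd0
    exact hp.one_lt.ne' (Nat.dvd_one.mp ((Nat.dvd_add_right (dvd_pow_self p hk0)).mp h1))
  have hmain := Cfsg.Agent.S3371.result q p hG ρ hρ (fun v w hv hw => by rw [horb v hv, horb w hw])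
  have hnot3 : ¬ ∃ e : V ≃ₗ[ZMod q] (Fin 2 → ZMod q),
      ∀ f : (Fin 2 → ZMod q) ≃ₗ[ZMod q] (Fin 2 → ZMod q),
        (∃ g : G, f = e.symm.trans ((ρ g).trans e)) ↔
        ∃ a s : ZMod q, a ≠ 0 ∧ (s = 1 ∨ s = -1) ∧
          ((∀ v, f v = ![a * v 0, s * a⁻¹ * v 1]) ∨ (∀ v, f v = ![s * a⁻¹ * v 1, a * v 0])) := by
    rintro ⟨e, he⟩
    obtain ⟨g, hg⟩ := htrans (e.symm ![1, 0]) (e.symm ![1, 1]) (by simp) (by simp)
    obtain ⟨a, s, -, -, h⟩ := (he _).mp ⟨g, rfl⟩
    rcases h with h | h
    · have := congrFun (h ![1, 0]) 1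
      simp [hg] at this
    · have := congrFun (h ![1, 0]) 0
      simp [hg] at this
  rcases hq.eq_two_or_odd' with rfl | hqodd
  · left
    have hk1 : k = 1 := by
      have := CfsgH8.pow_add_one_eq_two_pow (hp.eq_two_or_odd'.resolve_left hpq) hp.one_lt heq.symm
      omega
    rw [hk1, pow_one] at hk
    refine ⟨rfl, by omega, ?_⟩
    rcases hmain with ⟨-, h⟩ | ⟨-, m, hm, -⟩ | ⟨-, -, h⟩ | ⟨-, h, -⟩
    · rw [hregcard h, hk]
    · exfalso
      rcases m with _ | m
      · simp at hm
      · rw [pow_succ] at hm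
        omega
    · exact absurd h hnot3
    · omega
  · right
    have hp2 : p = 2 := by
      by_contra h
      have h1 := (hp.eq_two_or_odd'.resolve_left h).pow (n := k)
      have h2 := hqodd.pow (n := d)
      rw [heq, Nat.odd_add_one] at h2
      exact h2 h1
    subst hp2
    rcases CfsgH8.pow_eq_two_pow_add_one hqodd hd0 heq with h1 | ⟨rfl, h1⟩
    · left
      rw [h1, pow_one] at hcV heq
      have hsq : Nat.card V ≠ q ^ 2 := by
        rw [hcV]
        have := hq.one_lt
        nlinarith
      rcases hmain with ⟨h, h'⟩ | ⟨h, -⟩ | ⟨h, -⟩ | ⟨h, h', -⟩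
      · refine ⟨rfl, hcV, ⟨k, heq, by rw [hregcard h', hk]⟩, ?_⟩
        have hcomm : ∀ a b : G, a * b = b * a := by
          intro a b
          apply hρ
          ext v
          obtain ⟨c, rfl⟩ := (finrank_eq_one_iff_of_nonzero' v0 hv0).mp h1 v
          obtain ⟨x, hx⟩ := (finrank_eq_one_iff_of_nonzero' v0 hv0).mp h1 (ρ a v0)
          obtain ⟨y, hy⟩ := (finrank_eq_one_iff_of_nonzero' v0 hv0).mp h1 (ρ b v0)
          rw [map_smul, map_smul, CfsgH8.rho_mul, CfsgH8.rho_mul, ← hx, ← hy, map_smul, map_smul,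
            ← hx, ← hy, smul_comm x y]
        rcases CfsgH8.cyclic_or_quaternion_of_no_pp hG (CfsgH8.mem_zpowers_of_semiregular hp
          (CfsgH8.natCast_zmod_ne_zero hp hpq) h') with h | ⟨-, m, hm, ⟨e⟩⟩
        · exact h
        · exfalso
          have h2 := congrArg e (hcomm (e.symm (QuaternionGroup.a 1)) (e.symm (QuaternionGroup.xa 0)))
          simp only [map_mul, MulEquiv.apply_symm_apply, QuaternionGroup.a_mul_xa,
            QuaternionGroup.xa_mul_a, QuaternionGroup.xa.injEq, zero_sub, zero_add] at h2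
          have h3 : ((2 : ℕ) : ZMod (2 * 2 ^ m)) = 0 := by
            push_cast
            linear_combination -h2
          rw [ZMod.natCast_eq_zero_iff] at h3
          have h4 := Nat.le_of_dvd two_pos h3
          have h5 := Nat.one_lt_two_pow (n := m) (by omega)
          omega
      · exact absurd h hsq
      · exact absurd h hsq
      · omega
    · right
      rw [h1] at hcV
      have hN8 : N = 8 := by omega
      refine ⟨rfl, rfl, hcV, ?_⟩
      rcases hmain with ⟨h, h'⟩ | ⟨-, m, hm, h⟩ | ⟨-, -, h⟩ | ⟨h, -⟩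
      · have h8 := (hregcard h').trans hN8
        rcases h with h | ⟨m, ⟨e⟩⟩
        · exact Or.inl ⟨h, h8⟩
        · right; left
          have hm0 : m ≠ 0 := by
            rintro rfl
            have := Finite.of_equiv _ (e.trans
              QuaternionGroup.quaternionGroupZeroEquivDihedralGroupZero).toEquiv
            exact not_finite (DihedralGroup 0)
          have : NeZero m := ⟨hm0⟩
          have h2 := Nat.card_congr e.toEquiv
          rw [h8, Nat.card_eq_fintype_card, QuaternionGroup.card] at h2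
          obtain rfl : m = 2 := by omega
          exact ⟨e⟩
      · have hm2 : m = 2 := by
          have h4 : 2 ^ m = 2 ^ 2 := by omega
          exact Nat.pow_right_injective le_rfl h4
        subst hm2
        rcases h with ⟨⟨e⟩⟩ | h
        · exfalso
          have h8 : Nat.card G = 8 := by rw [Nat.card_congr e.toEquiv, DihedralGroup.nat_card]; rfl
          have hreg : ∀ v : V, v ≠ 0 → ∀ g : G, ρ g v = v → g = 1 := by
            intro v hv g hg
            have h2 := hos v hv
            rw [h8, hN8] at h2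
            have h3 : CfsgH8.vecStab ρ v = ⊥ := Subgroup.card_eq_one.mp (by omega)
            have : g ∈ CfsgH8.vecStab ρ v := hg
            rwa [h3] at this
          have := CfsgH8.mem_zpowers_of_semiregular hp (CfsgH8.natCast_zmod_ne_zero hp hpq) hreg
            (e.symm (DihedralGroup.r 2)) (e.symm (DihedralGroup.sr 0))
            (by rw [MulEquiv.orderOf_eq]; exact orderOf_eq_prime (by decide) (by decide))
            (by rw [← map_pow, map_eq_one_iff _ e.symm.injective]; decide)
            (by rw [← map_mul, ← map_mul]; congr 1)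
          obtain ⟨j, hj⟩ := this
          have h2 := congrArg e hj
          simp at h2
        · exact Or.inr (Or.inr h)
      · exact absurd h hnot3
      · omega

end Cfsg.Agent.S3370
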