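import Cfsg.Statements.S3375


set_option autoImplicit false
open Cfsg

namespace Cfsg.Agent.S3375

/-- Let γ be an automorphism of order 2 of a finite group H. (i) If γ fixes only the identity, then H is abelian and γ inverts every element. (ii) If γ has exactly two fixed points and H has a subgroup of index 2, then H has a γ-invariant abelian subgroup of index 2 on which γ acts by inversion. -/
theorem result {H : Type*} [Group H] [Finite H] (γ : MulAut H) (hγ : orderOf γ = 2) :
    ((∀ h : H, γ h = h → h = 1) → (∀ a b : H, a * b = b * a) ∧ ∀ h : H, γ h = h⁻¹) ∧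
    ((Nat.card {h : H // γ h = h} = 2 ∧ ∃ M : Subgroup H, M.index = 2) →
      ∃ A : Subgroup H, A.index = 2 ∧ IsMulCommutative A ∧ (∀ a ∈ A, γ a ∈ A) ∧ ∀ a ∈ A, γ a = a⁻¹) := by
  have h2 : γ ^ 2 = 1 := by rw [← hγ]; exact pow_orderOf_eq_one γ
  have hinv : ∀ x, γ (γ x) = x := fun x => by
    have := congrArg (fun f : MulAut H => f x) h2
    simpa [pow_two] using this
  refine ⟨fun hfpf => ?_, fun ⟨hcard, M, hM⟩ => ?_⟩
  · have hF : MonoidHom.FixedPointFree γ := hfpf
    have hI : Function.Involutive γ := hinv
    exact ⟨fun a b => (hF.commute_all_of_involutive hI a b).eq,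
      fun h => congrFun (hF.coe_eq_inv_of_involutive hI) h⟩
  · -- first find a `γ`-invariant subgroup of index two
    have hex : ∃ A : Subgroup H, A.index = 2 ∧ ∀ a, γ a ∈ A ↔ a ∈ A := by
      by_cases hM' : ∀ a, γ a ∈ M ↔ a ∈ M
      · exact ⟨M, hM, hM'⟩
      · let A : Subgroup H :=
          { carrier := {a | γ a ∈ M ↔ a ∈ M}
            mul_mem' := by
              intro a b ha hb
              simp only [Set.mem_setOf_eq, map_mul, Subgroup.mul_mem_iff_of_index_two hM] at *
              tauto
            one_mem' := by simp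
            inv_mem' := by
              intro a ha
              simpa using ha }
        have hA : ∀ a, a ∈ A ↔ (γ a ∈ M ↔ a ∈ M) := fun a => Iff.rfl
        refine ⟨A, ?_, fun a => ?_⟩
        · push Not at hM'
          obtain ⟨g, hg⟩ := hM'
          rw [Subgroup.index_eq_two_iff]
          refine ⟨g, fun b => ?_⟩
          simp only [hA, map_mul, Subgroup.mul_mem_iff_of_index_two hM, Xor]
          tauto
        · rw [hA, hA, hinv]; tauto
    obtain ⟨A, hA, hAγ⟩ := hex
    -- the fixed point subgroup
    let C : Subgroup H := γ.toMonoidHom.eqLocus (MonoidHom.id H)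
    have hC : Nat.card C = 2 := hcard
    let f : H → A := fun h => ⟨h⁻¹ * γ h, by
      rw [Subgroup.mul_mem_iff_of_index_two hA, inv_mem_iff, hAγ]⟩
    let g : Quotient (QuotientGroup.rightRel C) → A := Quotient.lift f (by
      intro a b hab
      have h1 : b * a⁻¹ ∈ C := QuotientGroup.rightRel_apply.mp hab
      have h3 : γ (b * a⁻¹) = b * a⁻¹ := h1
      rw [map_mul, map_inv] at h3
      apply Subtype.ext
      show a⁻¹ * γ a = b⁻¹ * γ b
      calc a⁻¹ * γ a = b⁻¹ * (b * a⁻¹) * γ a := by group
        _ = b⁻¹ * (γ b * (γ a)⁻¹) * γ a := by rw [h3]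
        _ = b⁻¹ * γ b := by group)
    have hginj : Function.Injective g := by
      intro a b
      induction a using Quotient.inductionOn with | _ a =>
      induction b using Quotient.inductionOn with | _ b =>
      intro hab
      have h1 : a⁻¹ * γ a = b⁻¹ * γ b := congrArg Subtype.val hab
      apply Quotient.sound
      apply QuotientGroup.rightRel_apply.mpr
      show γ (b * a⁻¹) = b * a⁻¹
      rw [map_mul, map_inv]
      calc γ b * (γ a)⁻¹ = b * (b⁻¹ * γ b) * (γ a)⁻¹ := by group
        _ = b * (a⁻¹ * γ a) * (γ a)⁻¹ := by rw [h1]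
        _ = b * a⁻¹ := by group
    have hcardq : Nat.card (Quotient (QuotientGroup.rightRel C)) = Nat.card A := by
      rw [Nat.card_congr (QuotientGroup.quotientRightRelEquivQuotientLeftRel C)]
      have h1 := C.card_mul_index
      have h3 := A.card_mul_index
      rw [hC] at h1
      rw [hA] at h3
      have : C.index = Nat.card (H ⧸ C) := rfl
      omega
    have hgsurj : Function.Surjective g :=
      ((Nat.bijective_iff_injective_and_card g).mpr ⟨hginj, hcardq⟩).2
    have hinvA : ∀ a ∈ A, γ a = a⁻¹ := by
      intro a ha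
      obtain ⟨q, hq⟩ := hgsurj ⟨a, ha⟩
      induction q using Quotient.inductionOn with | _ h =>
      have h1 : h⁻¹ * γ h = a := congrArg Subtype.val hq
      rw [← h1, map_mul, map_inv, hinv]
      group
    refine ⟨A, hA, ⟨⟨fun a b => Subtype.ext ?_⟩⟩, fun a ha => (hAγ a).mpr ha, hinvA⟩
    have h1 := hinvA _ (A.mul_mem a.2 b.2)
    rw [map_mul, hinvA _ a.2, hinvA _ b.2, ← mul_inv_rev, inv_inj] at h1
    exact h1.symm

end Cfsg.Agent.S3375
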