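import Cfsg.Statements.S3378
import Cfsg.Agent.H3.SL25Rec

set_option autoImplicit false
open Cfsg

namespace Cfsg.Agent.S3378

/-- Every non-solvable group of order 120 whose Sylow 2-subgroups are quaternion of order 8 is isomorphic to SL(2,5), and SL(2,5) has the presentation ⟨x, y, z | x³ = y⁵ = z² = 1, z⁻¹xz = x, z⁻¹yz = y, (xy)² = z⟩. -/
theorem result :
    (∀ (G : Type*) [Group G] [Finite G], Nat.card G = 120 → ¬ Group.IsSolvable G →
      (∀ P : Sylow 2 G, Nonempty ((P : Subgroup G) ≃* QuaternionGroup 2)) →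
      Nonempty (G ≃* Matrix.SpecialLinearGroup (Fin 2) (ZMod 5))) ∧
    Nonempty (PresentedGroup ({FreeGroup.of (0 : Fin 3) ^ 3, FreeGroup.of (1 : Fin 3) ^ 5, FreeGroup.of (2 : Fin 3) ^ 2,
        (FreeGroup.of (2 : Fin 3))⁻¹ * FreeGroup.of 0 * FreeGroup.of 2 * (FreeGroup.of (0 : Fin 3))⁻¹,
        (FreeGroup.of (2 : Fin 3))⁻¹ * FreeGroup.of 1 * FreeGroup.of 2 * (FreeGroup.of (1 : Fin 3))⁻¹,
        (FreeGroup.of (0 : Fin 3) * FreeGroup.of 1) ^ 2 * (FreeGroup.of (2 : Fin 3))⁻¹} : Set (FreeGroup (Fin 3)))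
      ≃* Matrix.SpecialLinearGroup (Fin 2) (ZMod 5)) := by
  exact ⟨fun G _ _ h1 h2 h3 => CfsgH3.sl25_of_card_120 G h1 h2 h3, ⟨CfsgH3.sl25PresEquiv⟩⟩

end Cfsg.Agent.S3378
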