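import Cfsg.Statements.S3380
import Cfsg.Agent.H8.Imprim

set_option autoImplicit false
open Cfsg

namespace Cfsg.Agent.S3380

/-- Let a finite p-group G act faithfully and irreducibly on a non-trivial finite vector space V over the field with q elements (q prime), and suppose G is not cyclic, generalized quaternion, dihedral or semidihedral. Then G has a subgroup H of index p and V is the direct sum of p subspaces, each invariant under H, on none of which H acts faithfully, and which every element of G outside H permutes in a single p-cycle. -/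
theorem result
    (q : ℕ) [Fact q.Prime] {V : Type*} [AddCommGroup V] [Module (ZMod q) V] [Finite V] [Nontrivial V]
    {G : Type*} [Group G] [Finite G] (p : ℕ) [Fact p.Prime] (hG : IsPGroup p G)
    (ρ : G →* (V ≃ₗ[ZMod q] V)) (hρ : Function.Injective ρ)
    (hirr : ∀ W : Submodule (ZMod q) V, (∀ g : G, ∀ w ∈ W, ρ g w ∈ W) → W = ⊥ ∨ W = ⊤)
    (hnc : ¬ IsCyclic G) (hnq : ∀ n : ℕ, ¬ Nonempty (G ≃* QuaternionGroup n))
    (hnd : ∀ n : ℕ, ¬ Nonempty (G ≃* DihedralGroup n)) (hnsd : ¬ Cfsg.IsQuasiDihedral G) :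
    ∃ (H : Subgroup G) (W : Fin p → Submodule (ZMod q) V), H.index = p ∧
      iSup W = ⊤ ∧ iSupIndep W ∧
      (∀ h ∈ H, ∀ i, ∀ w ∈ W i, ρ h w ∈ W i) ∧
      (∀ i, ∃ h ∈ H, h ≠ 1 ∧ ∀ w ∈ W i, ρ h w = w) ∧
      ∀ g : G, g ∉ H → ∃ σ : Equiv.Perm (Fin p), orderOf σ = p ∧ ∀ i, (W i).map (ρ g : V →ₗ[ZMod q] V) = W (σ i) := by
  have hp : p.Prime := Fact.out
  have hpq : p ≠ q := by
    rintro rfl
    have := CfsgH8.subsingleton_of_irreducible_char hG hρ hirr
    exact hnc inferInstance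
  have hpK := CfsgH8.natCast_zmod_ne_zero hp hpq
  have hpp : CfsgH8.HasNormalPP p G := by
    by_contra hno
    rcases CfsgH8.classification_of_not_hasNormalPP hG hno with h | ⟨-, ⟨n, -, h⟩ | ⟨n, -, h⟩ | h⟩
    · exact hnc h
    · exact hnq _ h
    · exact hnd _ h
    · exact hnsd h
  obtain ⟨z, a, hzc, hz, ha, haz, hfpf, hconj, hidx, -⟩ :=
    CfsgH8.data_of_hasNormalPP hρ hirr hp hpK hpp
  have hzp : z ^ p = 1 := hz ▸ pow_orderOf_eq_one z
  have hc : Commute a z := Subgroup.mem_center_iff.mp hzc a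
  have hcz : ∀ (g : G) (k : ℕ), g * z ^ k = z ^ k * g := fun g k =>
    Subgroup.mem_center_iff.mp (pow_mem hzc k) g
  refine ⟨Subgroup.centralizer {a}, fun i => CfsgH8.fixSp ρ (a * z ^ (i : ℕ)), hidx,
    CfsgH8.iSup_fixSp_eq_top hp hpK hzp ha hc hfpf, CfsgH8.iSupIndep_fixSp hp hpK hzp hc hfpf,
    ?_, ?_, ?_⟩
  · intro h hh i w hw
    rw [Subgroup.mem_centralizer_singleton_iff] at hh
    rw [CfsgH8.mem_fixSp] at hw ⊢
    rw [← CfsgH8.rho_mul, mul_assoc, ← hcz, ← mul_assoc, ← hh, mul_assoc, CfsgH8.rho_mul, hw]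
  · intro i
    refine ⟨a * z ^ (i : ℕ), ?_, fun h => haz ?_, fun w hw => hw⟩
    · rw [Subgroup.mem_centralizer_singleton_iff, mul_assoc, ← hcz]
    · exact eq_inv_of_mul_eq_one_left h ▸ inv_mem (pow_mem (Subgroup.mem_zpowers z) _)
  · intro g hg
    obtain ⟨c, hc1, hc2⟩ := hconj g
    have : NeZero p := ⟨hp.ne_zero⟩
    have hc0 : (⟨c, hc1⟩ : Fin p) ≠ 0 := by
      intro h
      have : c = 0 := congrArg Fin.val h
      rw [this, pow_zero, mul_one, mul_inv_eq_iff_eq_mul] at hc2
      exact hg (Subgroup.mem_centralizer_singleton_iff.mpr hc2)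
    refine ⟨Equiv.addLeft (⟨c, hc1⟩ : Fin p), ?_, fun i => ?_⟩
    · apply orderOf_eq_prime
      · have h0 : p • (⟨c, hc1⟩ : Fin p) = 0 := by
          have := card_nsmul_eq_zero' (x := (⟨c, hc1⟩ : Fin p))
          rwa [Nat.card_eq_fintype_card, Fintype.card_fin] at this
        have h1 : ∀ (n : ℕ) (i : Fin p), (Equiv.addLeft (⟨c, hc1⟩ : Fin p) ^ n) i =
            n • (⟨c, hc1⟩ : Fin p) + i := by
          intro n
          induction n with
          | zero => simp
          | succ n ih =>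
            intro i
            rw [pow_succ', Equiv.Perm.mul_apply, ih, succ_nsmul', add_assoc]
            rfl
        ext i
        rw [h1, h0, zero_add]
        rfl
      · intro h
        have := congrArg (fun σ : Equiv.Perm (Fin p) => σ 0) h
        exact hc0 (by simpa using this)
    · rw [CfsgH8.map_fixSp]
      congr 1
      rw [← mul_assoc, mul_assoc _ _ g⁻¹, ← hcz, ← mul_assoc, hc2, mul_assoc, ← pow_add]
      congr 1
      rw [pow_eq_pow_iff_modEq, hz, Equiv.coe_addLeft, Fin.val_add]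
      exact (Nat.mod_modEq _ _).symm

end Cfsg.Agent.S3380
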