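import Cfsg.Statements.S3421
import Cfsg.Agent.H2.SpecPSL2
import Cfsg.Agent.H7.PSL2Spec
import Cfsg.Agent.H7.SpecBasic
import Cfsg.Agent.H6.PSLSmall

set_option autoImplicit false
open Cfsg

namespace Cfsg.Agent.S3421

/-- Let F be a finite field with more than 3 elements. A finite group G is isomorphic to PSL(2, F) if and only if G has the same set of element orders and the same order as PSL(2, F). -/
theorem result {G : Type*} [Group G] [Finite G] {F : Type*} [Field F] [Fintype F] (hF : 3 < Fintype.card F) :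
    Nonempty (G ≃* Matrix.ProjectiveSpecialLinearGroup (Fin 2) F) ↔
      (Set.range (orderOf : G → ℕ) = Set.range (orderOf : Matrix.ProjectiveSpecialLinearGroup (Fin 2) F → ℕ) ∧
        Nat.card G = Nat.card (Matrix.ProjectiveSpecialLinearGroup (Fin 2) F)) := by
  refine ⟨fun ⟨e⟩ => ⟨CfsgH7.spec_congr e, Nat.card_congr e.toEquiv⟩, fun ⟨h1, h2⟩ => ?_⟩
  obtain ⟨p, hp⟩ := CharP.exists F
  have hpp : p.Prime := CharP.char_is_prime F p
  have := Fact.mk hpp
  rw [CfsgH7.spec_psl2 p] at h1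
  have hs : ∀ x : G, x ^ p = 1 ∨
      x ^ ((Fintype.card F - 1) / Nat.gcd 2 (Fintype.card F - 1)) = 1 ∨
      x ^ ((Fintype.card F + 1) / Nat.gcd 2 (Fintype.card F - 1)) = 1 := fun x => by
    have : orderOf x ∈ Set.range (orderOf : G → ℕ) := ⟨x, rfl⟩
    rw [h1] at this
    simpa only [Set.mem_setOf_eq, orderOf_dvd_iff_pow_eq_one] using this
  obtain ⟨k, -, hk⟩ := FiniteField.card F p
  suffices ∃ c e g, CfsgH2.SpecData G p (Fintype.card F) c e g by
    obtain ⟨c, e, g, S⟩ := this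
    obtain ⟨F', i1, i2, e1, ⟨e2⟩⟩ := S.psl2
    obtain ⟨e3⟩ := CfsgH6.nonempty_psl_congr (n := 2) e1
    exact ⟨e2.trans e3⟩
  rcases Nat.even_or_odd (Fintype.card F) with he | ho
  · have hp2 : p = 2 := ((Nat.prime_dvd_prime_iff_eq Nat.prime_two hpp).1
      (Nat.prime_two.dvd_of_dvd_pow (hk ▸ even_iff_two_dvd.1 he))).symm
    subst hp2
    rw [CfsgH6.card_psl2_char_two] at h2
    obtain ⟨m, hm⟩ := he
    obtain ⟨r, rfl⟩ : ∃ r, m = r + 1 := ⟨m - 1, by omega⟩
    have e1 : Fintype.card F - 1 = 2 * r + 1 := by omega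
    have hg : Nat.gcd 2 (Fintype.card F - 1) = 1 := by rw [e1]; simp
    rw [hg, Nat.div_one, Nat.div_one] at hs
    refine ⟨_, _, 1, ⟨_, hk⟩, hF, Or.inl rfl, by omega, by omega, ?_, ?_, hs⟩
    · rw [e1, show Fintype.card F + 1 = 2 + (2 * r + 1) by omega]
      simp
    · rw [h2, e1, hm]
      have : (r + 1 + (r + 1)) ^ 2 - 1 = (2 * r + 3) * (2 * r + 1) :=
        Nat.sub_eq_of_eq_add (by ring)
      rw [this]; ring
  · have h3 := CfsgH6.two_mul_card_psl2_odd F ho
    rw [← h2] at h3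
    obtain ⟨m, hm⟩ := ho
    have e1 : Fintype.card F - 1 = 2 * m := by omega
    have hg : Nat.gcd 2 (Fintype.card F - 1) = 2 := by rw [e1]; simp
    rw [hg, show (Fintype.card F - 1) / 2 = m by omega,
      show (Fintype.card F + 1) / 2 = m + 1 by omega] at hs
    refine ⟨_, _, 2, ⟨_, hk⟩, hF, Or.inr rfl, by omega, by omega, by simp, ?_, hs⟩
    have : (2 * m + 1) ^ 2 - 1 = 2 * ((2 * m + 2) * m) := Nat.sub_eq_of_eq_add (by ring)
    rw [hm, this] at h3
    rw [hm]
    nlinarith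

end Cfsg.Agent.S3421
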