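import Cfsg.Statements.S3427
import Cfsg.Agent.H2.G22
import Cfsg.Agent.H2.G22G
import Cfsg.Agent.H7.SpecBasic

set_option autoImplicit false
open Cfsg

namespace Cfsg.Agent.S3427

/-- Let F be the field with 2 elements and let M be the Chevalley group of type G₂ over F (a non-simple group of order 12096 whose derived subgroup, of index 2, is isomorphic to PSU(3, 3)). A finite group G is isomorphic to M if and only if G has the same set of element orders and the same order as M. -/
theorem result {G : Type*} [Group G] [Finite G] {F : Type*} [Field F] [Fintype F] (hF : Fintype.card F = 2) :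
    Nonempty (G ≃* ↥(Cfsg.Lie.chevG2.group F)) ↔
      (Set.range (orderOf : G → ℕ) = Set.range (orderOf : ↥(Cfsg.Lie.chevG2.group F) → ℕ) ∧ Nat.card G = Nat.card ↥(Cfsg.Lie.chevG2.group F)) := by
  have hM := CfsgH2.G22.card_group hF
  refine ⟨fun ⟨e⟩ => ⟨CfsgH7.spec_congr e, Nat.card_congr e.toEquiv⟩, fun ⟨h1, h2⟩ => ?_⟩
  haveI : Finite ↥(Cfsg.Lie.chevG2.group F) := Nat.finite_of_card_ne_zero (by rw [hM]; norm_num)
  refine CfsgH2.G22.recog (h2.trans hM) (fun g => ?_) hM (CfsgH2.G22.orderOf_group hF)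
  obtain ⟨x, hx⟩ : orderOf g ∈ Set.range (orderOf : ↥(Cfsg.Lie.chevG2.group F) → ℕ) :=
    h1 ▸ ⟨g, rfl⟩
  exact hx ▸ CfsgH2.G22.orderOf_group hF x

end Cfsg.Agent.S3427
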