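import Cfsg.Statements.S3430
import Cfsg.Agent.H5.Feit

set_option autoImplicit false
open Cfsg

namespace Cfsg.Agent.S3430

/-- Let q, n ≥ 2 be integers. Unless (n = 2 and q + 1 = 2^s·3^t for some s ≥ 0 and t ≤ 1), or (q = 2 and n ∈ {4, 6, 10, 12, 18}), or (q = 3 and n ∈ {4, 6}), or (q, n) = (5, 6), there is a prime p dividing q^n − 1 but no q^i − 1 with 1 ≤ i < n (a primitive prime divisor), such that p > n + 1 or p² divides q^n − 1. -/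
theorem result (q n : ℕ) (hq : 2 ≤ q) (hn : 2 ≤ n)
    (h1 : ¬ (n = 2 ∧ ∃ s t : ℕ, t ≤ 1 ∧ q + 1 = 2 ^ s * 3 ^ t))
    (h2 : ¬ (q = 2 ∧ (n = 4 ∨ n = 6 ∨ n = 10 ∨ n = 12 ∨ n = 18)))
    (h3 : ¬ (q = 3 ∧ (n = 4 ∨ n = 6))) (h4 : ¬ (q = 5 ∧ n = 6)) :
    ∃ p : ℕ, p.Prime ∧ p ∣ q ^ n - 1 ∧ (∀ i : ℕ, 1 ≤ i → i < n → ¬ p ∣ q ^ i - 1) ∧ (n + 1 < p ∨ p ^ 2 ∣ q ^ n - 1) := by
  exact CfsgH5.Feit.feit q n hq hn h1 h2 h3 h4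

end Cfsg.Agent.S3430
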