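import Cfsg.Statements.S3433
import Cfsg.Agent.H6.CITHyp
import Cfsg.Agent.L.ZassTI

set_option autoImplicit false
open Cfsg

namespace Cfsg.Agent.S3433

/-- A finite group whose set of element orders is exactly {1, 2, 3, 4, 5} is isomorphic to the alternating group of degree 6, or has a normal elementary abelian 2-subgroup with quotient isomorphic to the alternating group of degree 5. -/
theorem result {G : Type*} [Group G] [Finite G] (h : Set.range (orderOf : G → ℕ) = {k : ℕ | 1 ≤ k ∧ k ≤ 5}) :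
    Nonempty (G ≃* ↥(alternatingGroup (Fin 6))) ∨
      ∃ (N : Subgroup G) (_ : N.Normal), Cfsg.IsElementaryAbelian 2 N ∧ Nonempty (G ⧸ N ≃* ↥(alternatingGroup (Fin 5))) := by
  exact (CfsgH6.spec_five_class CfsgL.hypTI CfsgH6.hypC3 CfsgH6.hypC4 h).imp_right fun ⟨h1, h2⟩ =>
    ⟨_, inferInstance, ⟨⟨⟨fun a b => Subtype.ext (h1.comm a.2 b.2)⟩⟩,
      fun a ha => (sq a).trans (h1 a ha)⟩, h2⟩

end Cfsg.Agent.S3433
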