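import Cfsg.Statements.S3699
import Cfsg.Agent.H6.CITHyp
import Cfsg.Agent.L.ZassTI

set_option autoImplicit false
open Cfsg

namespace Cfsg.Agent.S3699

/-- Let `q = 2^(2m+1) ≥ 8` and `S = Sz(q)` the Suzuki group. If a finite group `G` has the same prime graph as `S` (same prime divisors of the order; for distinct primes `r, s` an element of order `rs` in one iff in the other), then `G/O₂(G)` is isomorphic to `S`. The known proof uses the classification of finite simple groups. -/
theorem result {F : Type*} [Field F] [Fintype F] (m : ℕ) (hm : 1 ≤ m)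
    (hF : Fintype.card F = 2 ^ (2 * m + 1)) {G : Type*} [Group G] [Finite G]
    (h : ((∀ r : ℕ, r.Prime → (r ∣ Nat.card ↥(Cfsg.Lie.Sz F (2 ^ (m + 1))) ↔ r ∣ Nat.card G)) ∧
      (∀ r s : ℕ, r.Prime → s.Prime → r ≠ s → ((∃ x : ↥(Cfsg.Lie.Sz F (2 ^ (m + 1))), orderOf x = r * s) ↔ (∃ y : G, orderOf y = r * s))))) :
    Nonempty (G ⧸ Cfsg.pCore 2 G ≃* ↥(Cfsg.Lie.Sz F (2 ^ (m + 1)))) := by
  exact CfsgH6.primeGraph_sz_class CfsgL.hypTI m hm hF h
end Cfsg.Agent.S3699
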