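import Cfsg.Statements.S3700
import Cfsg.Agent.H6.CITHyp
import Cfsg.Agent.L.ZassTI

set_option autoImplicit false
open Cfsg

namespace Cfsg.Agent.S3700

/-- Let `F` be a finite field with `2^m` elements, `m ≥ 4`. If a finite group `G` has the same prime graph as `PSL(2, F)` (same prime divisors of the order; for distinct primes `r, s` an element of order `rs` in one iff in the other), then `G/O₂(G)` is isomorphic to `PSL(2, F)`. The known proof uses the classification of finite simple groups. -/
theorem result {F : Type*} [Field F] [Fintype F] (m : ℕ) (hm : 4 ≤ m)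
    (hF : Fintype.card F = 2 ^ m) {G : Type*} [Group G] [Finite G]
    (h : ((∀ r : ℕ, r.Prime → (r ∣ Nat.card (Matrix.ProjectiveSpecialLinearGroup (Fin 2) F) ↔ r ∣ Nat.card G)) ∧
      (∀ r s : ℕ, r.Prime → s.Prime → r ≠ s → ((∃ x : (Matrix.ProjectiveSpecialLinearGroup (Fin 2) F), orderOf x = r * s) ↔ (∃ y : G, orderOf y = r * s))))) :
    Nonempty (G ⧸ Cfsg.pCore 2 G ≃* Matrix.ProjectiveSpecialLinearGroup (Fin 2) F) := by
  exact CfsgH6.primeGraph_psl2_class CfsgL.hypTI CfsgH6.hypC3 CfsgH6.hypC4 m hm hF h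
end Cfsg.Agent.S3700
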