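import Cfsg.Statements.S3704
import Cfsg.Agent.H4.Prim

set_option autoImplicit false
open Cfsg

namespace Cfsg.Agent.S3704

/-- Let G be a finite group acting faithfully and 2-transitively on a finite set Ω of size n, and let H be a subgroup of index n in G which is not transitive on Ω and fixes no point of Ω. Then H has exactly two orbits on Ω. -/
theorem result {G Ω : Type*} [Group G] [Finite G] [MulAction G Ω] [FaithfulSMul G Ω] [Finite Ω] (h2 : MulAction.IsMultiplyPretransitive G Ω 2) (H : Subgroup G) (hidx : H.index = Nat.card Ω) (hnt : ¬ MulAction.IsPretransitive H Ω) (hfix : ∀ a : Ω, ∃ h : H, h • a ≠ a) : Nat.card (MulAction.orbitRel.Quotient H Ω) = 2 := by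
  classical
  open MulAction in
  have := Fintype.ofFinite Ω
  have := Fintype.ofFinite (G ⧸ H)
  have htr : IsPretransitive G Ω := isPretransitive_of_is_two_pretransitive
  have h2' : ∀ {a b c d : Ω}, a ≠ b → c ≠ d → ∃ g : G, g • a = c ∧ g • b = d :=
    is_two_pretransitive_iff.1 h2
  obtain ⟨a₁, a₂, h12⟩ : ∃ a₁ a₂ : Ω, ¬ (orbitRel H Ω) a₂ a₁ := by
    by_contra hcon
    push Not at hcon
    exact hnt ⟨fun a b => hcon a b⟩
  have hcard : Fintype.card (G ⧸ H) = Fintype.card Ω := by
    rw [← Nat.card_eq_fintype_card, ← Nat.card_eq_fintype_card, ← hidx]; rfl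
  -- incidence matrices
  let A : Ω → (G ⧸ H) → Ω → ℚ := fun a q ω => if (orbitRel H Ω) (q.out⁻¹ • ω) a then 1 else 0
  have hA : ∀ (a : Ω) (g : G) (ω : Ω),
      A a (g : G ⧸ H) ω = if (orbitRel H Ω) (g⁻¹ • ω) a then 1 else 0 := by
    intro a g ω
    obtain ⟨h, hh⟩ := QuotientGroup.mk_out_eq_mul H g
    simp only [A, hh]
    congr 1
    apply propext
    have : (orbitRel H Ω) ((g * h : G)⁻¹ • ω) (g⁻¹ • ω) := ⟨h⁻¹, by
      show ((h⁻¹ : H) : G) • g⁻¹ • ω = _
      rw [mul_inv_rev, mul_smul]; rfl⟩
    exact ⟨fun h' => (orbitRel H Ω).trans ((orbitRel H Ω).symm this) h',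
      fun h' => (orbitRel H Ω).trans this h'⟩
  have hAinv : ∀ (a : Ω) (k : G) (q : G ⧸ H) (ω : Ω), A a (k • q) (k • ω) = A a q ω := by
    intro a k q ω
    induction q using QuotientGroup.induction_on with
    | H g =>
      have : k • (g : G ⧸ H) = ((k * g : G) : G ⧸ H) := rfl
      rw [this, hA, hA, mul_inv_rev, mul_smul, inv_smul_smul]
  -- invariant functions on pairs
  have hinv : ∀ M : Ω → Ω → ℚ, (∀ (k : G) x y, M (k • x) (k • y) = M x y) →
      ∃ c d : ℚ, ∀ x y, M x y = if x = y then c else d := by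
    intro M hM
    have hne : a₁ ≠ a₂ := by rintro rfl; exact h12 ((orbitRel H Ω).refl _)
    refine ⟨M a₁ a₁, M a₁ a₂, fun x y => ?_⟩
    split_ifs with hxy
    · obtain ⟨k, rfl⟩ := exists_smul_eq G a₁ x
      rw [← hxy, hM]
    · obtain ⟨k, rfl, rfl⟩ := h2' hne hxy
      rw [hM]
  have hsum : ∀ (a b : Ω), ∃ c d : ℚ, ∀ x y, ∑ q, A a q x * A b q y = if x = y then c else d := by
    intro a b
    apply hinv
    intro k x y
    rw [← Equiv.sum_comp (MulAction.toPerm k)]
    simp only [toPerm_apply, hAinv]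
  obtain ⟨r, l, hrl⟩ := hsum a₁ a₁
  have hA01 : ∀ a q ω, A a q ω = 0 ∨ A a q ω = 1 := by
    intro a q ω
    simp only [A]
    split_ifs <;> simp
  have hA1 : ∀ a b, A a (1 : G) b = if (orbitRel H Ω) b a then 1 else 0 := by
    intro a b; rw [hA]; simp
  have hne : a₁ ≠ a₂ := by rintro rfl; exact h12 ((orbitRel H Ω).refl _)
  have hrsum : ∀ x, ∑ q, A a₁ q x = r := by
    intro x
    have := hrl x x
    simp only [if_true] at this
    rw [← this]
    apply Finset.sum_congr rfl
    intro q _
    rcases hA01 a₁ q x with h | h <;> simp [h]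
  have hl0 : 0 ≤ l := by
    have := hrl a₁ a₂
    simp only [hne, if_false] at this
    rw [← this]
    apply Finset.sum_nonneg
    intro q _
    rcases hA01 a₁ q a₁ with h | h <;> rcases hA01 a₁ q a₂ with h' | h' <;> simp [h, h']
  have hlr : l < r := by
    have := hrl a₁ a₂
    simp only [hne, if_false] at this
    rw [← this, ← hrsum a₁]
    apply Finset.sum_lt_sum
    · intro q _
      rcases hA01 a₁ q a₁ with h | h <;> rcases hA01 a₁ q a₂ with h' | h' <;> simp [h, h']
    · refine ⟨((1 : G) : G ⧸ H), Finset.mem_univ _, ?_⟩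
      rw [hA1, hA1, if_pos ((orbitRel H Ω).refl _), if_neg h12]
      simp
  -- the matrix is invertible
  let e : (G ⧸ H) ≃ Ω := Fintype.equivOfCardEq hcard
  let M : Matrix Ω Ω ℚ := fun i ω => A a₁ (e.symm i) ω
  have hMinj : Function.Injective M.mulVec := by
    apply (injective_iff_map_eq_zero M.mulVecLin).2
    intro v hv
    have hv' : ∀ q, ∑ ω, A a₁ q ω * v ω = 0 := by
      intro q
      have : ∑ ω, A a₁ (e.symm (e q)) ω * v ω = 0 := congrFun hv (e q)
      rwa [Equiv.symm_apply_apply] at this
    have h1 : ∀ x, (r - l) * v x + l * ∑ y, v y = 0 := by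
      intro x
      have : ∑ q, A a₁ q x * ∑ ω, A a₁ q ω * v ω = 0 := by simp [hv']
      simp_rw [Finset.mul_sum, ← mul_assoc] at this
      rw [Finset.sum_comm] at this
      simp_rw [← Finset.sum_mul, hrl] at this
      rw [← this, Finset.mul_sum]
      have h3 : ∀ y, (if x = y then r else l) * v y = (if x = y then (r - l) * v y else 0) + l * v y := by
        intro y; split_ifs <;> ring
      simp_rw [h3]
      rw [Finset.sum_add_distrib, Finset.sum_ite_eq]
      simp
    have h2 : ∑ y, v y = 0 := by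
      have : ∑ x, ((r - l) * v x + l * ∑ y, v y) = 0 := by simp [h1]
      rw [Finset.sum_add_distrib, ← Finset.mul_sum, Finset.sum_const, nsmul_eq_mul, ← mul_assoc,
        ← add_mul] at this
      rcases mul_eq_zero.1 this with h | h
      · exfalso
        have : (0 : ℚ) ≤ (Finset.univ : Finset Ω).card * l := by positivity
        linarith
      · exact h
    funext x
    have := h1 x
    rw [h2, mul_zero, add_zero] at this
    rcases mul_eq_zero.1 this with h | h
    · linarith
    · exact h
  have hMinj' : Function.Injective M.vecMul := by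
    rw [Matrix.vecMul_injective_iff_isUnit]
    exact Matrix.mulVec_injective_iff_isUnit.1 hMinj
  have hker : ∀ w : G ⧸ H → ℚ, (∀ x, ∑ q, A a₁ q x * w q = 0) → ∀ q, w q = 0 := by
    intro w hw
    have : M.vecMul (fun i => w (e.symm i)) = M.vecMul 0 := by
      funext x
      simp only [Matrix.vecMul, dotProduct, M, Pi.zero_apply, zero_mul, Finset.sum_const_zero]
      rw [← hw x, ← Equiv.sum_comp e.symm]
      exact Finset.sum_congr rfl (fun i _ => mul_comm _ _)
    have := hMinj' this
    intro q
    simpa using congrFun this (e q)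
  have hall : ∀ a₃, (orbitRel H Ω) a₃ a₁ ∨ (orbitRel H Ω) a₃ a₂ := by
    intro a₃
    by_contra hcon
    rw [not_or] at hcon
    obtain ⟨c, d, hcd⟩ := hsum a₁ a₂
    have hr : r ≠ 0 := by linarith
    have hrl' : r - l ≠ 0 := by linarith
    have key : ∀ y q, A a₂ q y - (c - d) / (r - l) * A a₁ q y -
        (d - (c - d) / (r - l) * l) / r = 0 := by
      intro y
      apply hker
      intro x
      simp_rw [mul_sub, Finset.sum_sub_distrib, mul_left_comm _ ((c - d) / (r - l)),
        ← Finset.mul_sum, ← Finset.sum_mul, hcd, hrl, hrsum]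
      split_ifs
      · field_simp; ring
      · field_simp; ring
    have k1 := key a₃ ((1 : G) : G ⧸ H)
    have k2 := key a₂ ((1 : G) : G ⧸ H)
    rw [hA1, hA1, if_neg hcon.1, if_neg hcon.2] at k1
    rw [hA1, hA1, if_neg h12, if_pos ((orbitRel H Ω).refl _)] at k2
    linarith
  rw [Nat.card_eq_two_iff]
  refine ⟨Quotient.mk'' a₁, Quotient.mk'' a₂, fun h => h12 ?_, ?_⟩
  · exact (orbitRel H Ω).symm (Quotient.exact' h)
  · rw [Set.eq_univ_iff_forall]
    intro q
    induction q using Quotient.inductionOn' with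
    | h a =>
      rcases hall a with h | h
      · left; exact Quotient.sound' h
      · right; exact Quotient.sound' h

end Cfsg.Agent.S3704
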