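import Cfsg.Statements.S3706
import Cfsg.Agent.H1.DesignCore

set_option autoImplicit false
open Cfsg

namespace Cfsg.Agent.S3706

/-- Let G be a finite group acting faithfully and 2-transitively on a finite set Ω of size n, and let H be a subgroup of index n in G which is not transitive on Ω and fixes no point of Ω. Suppose H acts unfaithfully on one of its orbits: some non-identity element of H fixes every point of that orbit. Then there are an integer m ≥ 2 and a finite field F with #Ω = (#F^(m+1) − 1)/(#F − 1), and G has a normal subgroup isomorphic to PSL_{m+1}(F) whose centralizer in G is trivial (so that G lies between PSL_{m+1}(F) and its automorphism group). -/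
theorem result {G Ω : Type*} [Group G] [Finite G] [MulAction G Ω] [FaithfulSMul G Ω] [Finite Ω] (h2 : MulAction.IsMultiplyPretransitive G Ω 2) (H : Subgroup G) (hidx : H.index = Nat.card Ω) (hnt : ¬ MulAction.IsPretransitive H Ω) (hfix : ∀ a : Ω, ∃ h : H, h • a ≠ a) (hunf : ∃ a : Ω, ∃ h : H, h ≠ 1 ∧ ∀ b ∈ MulAction.orbit H a, h • b = b) : ∃ (m : ℕ) (F : Type) (_ : Field F) (_ : Fintype F), 2 ≤ m ∧ Nat.card Ω = (Fintype.card F ^ (m + 1) - 1) / (Fintype.card F - 1) ∧ ∃ N : Subgroup G, N.Normal ∧ Nonempty (N ≃* Matrix.ProjectiveSpecialLinearGroup (Fin (m + 1)) F) ∧ Subgroup.centralizer (N : Set G) = ⊥ := by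
  classical
  obtain ⟨a, h, h1, hh⟩ := hunf
  let _ := Fintype.ofFinite Ω
  let Δ : Finset Ω := Finset.univ.filter (· ∈ MulAction.orbit H a)
  have memΔ : ∀ x, x ∈ Δ ↔ x ∈ MulAction.orbit H a := by simp [Δ]
  have hΔ : ∀ (u : H) x, u • x ∈ Δ ↔ x ∈ Δ := by
    intro u x
    rw [memΔ, memΔ]
    exact ⟨fun hx => by simpa using MulAction.mem_orbit_of_mem_orbit u⁻¹ hx,
      fun hx => MulAction.mem_orbit_of_mem_orbit u hx⟩
  refine CfsgH1.psl_of_short_orbit h2 Δ ?_ ?_ ?_ ⟨h, by simpa using h1, fun x hx => hh x ((memΔ x).1 hx)⟩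
  · obtain ⟨u, hu⟩ := hfix a
    have ha : a ∈ Δ := (memΔ a).2 (MulAction.mem_orbit_self a)
    exact Finset.one_lt_card.2 ⟨_, (hΔ u a).2 ha, a, ha, hu⟩
  · obtain ⟨b, hb⟩ : ∃ b, b ∉ Δ := by
      by_contra hc
      push Not at hc
      apply hnt
      refine ⟨fun x y => ?_⟩
      obtain ⟨u, rfl⟩ := (memΔ x).1 (hc x)
      obtain ⟨v, rfl⟩ := (memΔ y).1 (hc y)
      exact ⟨v * u⁻¹, by simp [mul_smul]⟩
    obtain ⟨u, hu⟩ := hfix b
    have : 1 < Δᶜ.card :=
      Finset.one_lt_card.2 ⟨u • b, by simpa [hΔ] using hb, b, by simpa using hb, hu⟩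
    rw [Finset.card_compl] at this
    omega
  · rw [← Nat.card_eq_fintype_card (α := Ω), ← hidx]
    exact CfsgH1.card_orbit_le_index H Δ fun u hu x => hΔ ⟨u, hu⟩ x

end Cfsg.Agent.S3706
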