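import Cfsg.Statements.S3718
import Cfsg.Agent.H6.OC5

set_option autoImplicit false
open Cfsg

namespace Cfsg.Agent.S3718

/-- Let G be a finite simple group whose set of element orders contains at most one composite number (at most one element order that is neither 1 nor a prime). Then G is cyclic of prime order, or isomorphic to PSL₂(q) for q ∈ {5, 7, 8, 9, 11, 13, 16}, to PSL₃(4), to the Suzuki group Sz(8), to PSL₂(3ⁿ) with (3ⁿ − 1)/2 and (3ⁿ + 1)/4 both prime, or to PSL₂(2ⁿ) with 2ⁿ − 1 and (2ⁿ + 1)/3 both prime. -/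
theorem result {G : Type*} [Group G] [Finite G] [IsSimpleGroup G]
    (h1 : {n : ℕ | n ∈ Set.range (orderOf : G → ℕ) ∧ 1 < n ∧ ¬ n.Prime}.Subsingleton) :
    (Nat.card G).Prime ∨
    (∃ (F : Type) (_ : Field F) (_ : Fintype F), (Fintype.card F = 5 ∨ Fintype.card F = 7 ∨ Fintype.card F = 8 ∨ Fintype.card F = 9 ∨
        Fintype.card F = 11 ∨ Fintype.card F = 13 ∨ Fintype.card F = 16) ∧ Nonempty (G ≃* Matrix.ProjectiveSpecialLinearGroup (Fin 2) F)) ∨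
    (∃ (F : Type) (_ : Field F) (_ : Fintype F), Fintype.card F = 4 ∧ Nonempty (G ≃* Matrix.ProjectiveSpecialLinearGroup (Fin 3) F)) ∨
    (∃ (F : Type) (_ : Field F) (_ : Fintype F), Fintype.card F = 8 ∧ Nonempty (G ≃* ↥(Cfsg.Lie.Sz F 4))) ∨
    (∃ (F : Type) (_ : Field F) (_ : Fintype F), ∃ n r s : ℕ, r.Prime ∧ s.Prime ∧ 3 ^ n - 1 = 2 * r ∧ 3 ^ n + 1 = 4 * s ∧
        Fintype.card F = 3 ^ n ∧ Nonempty (G ≃* Matrix.ProjectiveSpecialLinearGroup (Fin 2) F)) ∨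
    (∃ (F : Type) (_ : Field F) (_ : Fintype F), ∃ n r : ℕ, (2 ^ n - 1).Prime ∧ r.Prime ∧ 2 ^ n + 1 = 3 * r ∧
        Fintype.card F = 2 ^ n ∧ Nonempty (G ≃* Matrix.ProjectiveSpecialLinearGroup (Fin 2) F)) := by
  by_cases hns : Group.IsSolvable G
  · have : IsMulCommutative G := ⟨⟨IsSimpleGroup.comm_iff_isSolvable.2 hns⟩⟩
    exact .inl (Group.is_simple_iff_prime_card.1 inferInstance)
  right
  rcases CfsgH6.OneC.classify (fun d e a b c1 c2 c3 c4 => h1 ⟨a, c1, c2⟩ ⟨b, c3, c4⟩) hns with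
    ⟨F, _, _, h | h | h | h, ⟨e⟩⟩ | h | h
  · have := Fact.mk Nat.prime_five
    obtain ⟨a⟩ := CfsgH6.psl2_four_equiv h
    obtain ⟨b⟩ := CfsgH6.psl2_five_equiv (ZMod.card 5)
    exact .inl ⟨ZMod 5, _, _, .inl (ZMod.card 5), ⟨(e.trans a).trans b.symm⟩⟩
  · exact .inl ⟨F, _, _, h, ⟨e⟩⟩
  · obtain ⟨n, r, s, a1, a2, a3, a4, a5⟩ := h
    exact .inr (.inr (.inr (.inl ⟨F, _, _, n, r, s, a1, a2, a3, a4, a5, ⟨e⟩⟩)))
  · obtain ⟨n, r, a1, a2, a3, a4⟩ := h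
    exact .inr (.inr (.inr (.inr ⟨F, _, _, n, r, a1, a2, a3, a4, ⟨e⟩⟩)))
  · exact .inr (.inl h)
  · exact .inr (.inr (.inl h))

end Cfsg.Agent.S3718
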