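import Cfsg.Statements.S3728
import Cfsg.Agent.SZ.ZT_fin
import Cfsg.Agent.SZ.SP3_a

set_option autoImplicit false
open Cfsg

namespace Cfsg.Agent.S3728

/-- Let q = 2^(2m+1) with m ≥ 1 and let G be a finite group whose set of orders of maximal subgroups equals that of the Suzuki group Sz(q). Then G is isomorphic to Sz(q). -/
theorem result {G : Type*} [Group G] [Finite G] {F : Type*} [Field F] [Fintype F] (m : ℕ) (hm : 1 ≤ m)
    (hF : Fintype.card F = 2 ^ (2 * m + 1))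
    (h : {k : ℕ | ∃ M : Subgroup G, IsCoatom M ∧ k = Nat.card ↥M} = {k : ℕ | ∃ M : Subgroup ↥(Cfsg.Lie.Sz F (2 ^ (m + 1))), IsCoatom M ∧ k = Nat.card ↥M}) :
    Nonempty (G ≃* ↥(Cfsg.Lie.Sz F (2 ^ (m + 1)))) := by
  exact CfsgSZ.iso_of_maxOrd hm hF h

end Cfsg.Agent.S3728
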